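import Cfsg.Agent.Perm.FeitCoh
import Cfsg.Agent.PF.P06b
import Cfsg.Agent.PF.Bridge3
import Cfsg.Agent.PF.Bridge2
import Cfsg.Agent.Gen.ThompsonNil
import Cfsg.Agent.Gen.Invol

/-! Complements to Feit's coherence theorems: orthogonality and bridging of coherent sets of
irreducible characters (`coherent_ortho_irr`, `bridge_coherent_irr`), the exceptional Frobenius
groups with a single faithful-on-kernel character (`card_eq_of_subsingleton`, `elemAb_of_card`),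
and Sibley's theorem for a TI Frobenius kernel of odd order (`Sibley_odd_ker`). -/

set_option autoImplicit false
set_option maxSynthPendingDepth 3

namespace Cfsg.Agent.Perm

open Cfsg.Agent.BG Cfsg.Agent.PF
open scoped _root_.Classical ComplexConjugate

variable {X Y : Type*} [Group X] [Finite X] [Group Y] [Finite Y]
variable {L K : Subgroup X} {G : Subgroup Y} {S S1 S2 : Finset (X → ℂ)}
  {τ ν ν1 ν2 : (X → ℂ) →ₗ[ℂ] (Y → ℂ)} {χ η : X → ℂ}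

theorem coh_sign (hS : S ⊆ Irr L) (hν : CohWith L G S τ ν) (h1 : ∀ φ ∈ ZS1 S, τ φ 1 = 0) :
    ∃ ε : ℂ, ε * conj ε = 1 ∧ ∀ χ ∈ S, ε • ν χ ∈ Irr G := by
  rcases S.eq_empty_or_nonempty with rfl | ⟨χ, hχ⟩
  · exact ⟨1, by simp, by simp⟩
  rcases hν.dirr hχ (hS hχ) with k | k
  · exact ⟨1, by simp, fun ψ hψ => by
      rw [one_smul]; exact coherent_dirr_sign hν h1 hχ hψ (hS hχ) (hS hψ) k⟩
  · exact ⟨-1, by simp, fun ψ hψ => by
      rw [neg_one_smul]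
      exact coherent_dirr_sign (τ := -τ) (ν := -ν) ⟨hν.iso.neg, fun φ hφ => by simp [hν.eq φ hφ]⟩
        (fun φ hφ => by simp [h1 φ hφ]) hχ hψ (hS hχ) (hS hψ) k⟩

theorem cross_mem_ZS1 (hS : S ⊆ Irr L) (hχ : χ ∈ S) (hη : η ∈ S) :
    (deg η : ℂ) • χ - (deg χ : ℂ) • η ∈ ZS1 S := sub_mem_ZS1
  (ZS_natCast_smul _ (mem_ZS_of_mem hχ)) (ZS_natCast_smul _ (mem_ZS_of_mem hη)) (by
    simp only [Pi.smul_apply, smul_eq_mul]
    rw [Irr_apply_one (hS hχ), Irr_apply_one (hS hη)]; ring)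

theorem coherent_ortho_irr (hS : S ⊆ Irr L) (hτ : IsoOn L G (ZS1 S) τ)
    (h1 : ∀ φ ∈ ZS1 S, τ φ 1 = 0) (hS1 : S1 ⊆ S) (hS2 : S2 ⊆ S) (hd : Disjoint S1 S2)
    (c1 : 1 < S1.card) (c2 : 1 < S2.card) (hν1 : CohWith L G S1 τ ν1) (hν2 : CohWith L G S2 τ ν2)
    (hχ : χ ∈ S1) (hη : η ∈ S2) : dot G (ν1 χ) (ν2 η) = 0 := by
  obtain ⟨ε, hε, i1⟩ := coh_sign (hS1.trans hS) hν1 fun φ hφ => h1 φ (ZS1_mono hS1 hφ)
  obtain ⟨δ, hδ, i2⟩ := coh_sign (hS2.trans hS) hν2 fun φ hφ => h1 φ (ZS1_mono hS2 hφ)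
  obtain ⟨χ', hχ', n1⟩ := Finset.exists_mem_ne c1 χ
  obtain ⟨η', hη', n2⟩ := Finset.exists_mem_ne c2 η
  have m1 := cross_mem_ZS1 (hS1.trans hS) hχ hχ'
  have m2 := cross_mem_ZS1 (hS2.trans hS) hη hη'
  have o : ∀ a ∈ S1, ∀ b ∈ S2, dot L a b = 0 := fun a ha b hb =>
    dot_Irr_ne (hS (hS1 ha)) (hS (hS2 hb)) fun e => Finset.disjoint_left.1 hd ha (e ▸ hb)
  have k := hτ.dot_eq _ (ZS1_mono hS1 m1) _ (ZS1_mono hS2 m2)
  rw [← hν1.eq _ m1, ← hν2.eq _ m2] at k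
  simp only [map_sub, map_smul, dot_sub_left, dot_sub_right, dot_smul_left, dot_smul_right,
    o _ hχ _ hη, o _ hχ _ hη', o _ hχ' _ hη, o _ hχ' _ hη', map_natCast] at k
  by_contra hne
  have e0 : ε ≠ 0 := by rintro rfl; simp at hε
  have d0 : conj δ ≠ 0 := by rintro e; simp [e] at hδ
  have e : ε • ν1 χ = δ • ν2 η := by
    by_contra e
    have := dot_Irr_ne (i1 χ hχ) (i2 η hη) e
    rw [dot_smul_left, dot_smul_right] at this
    simp [e0, d0, hne] at this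
  have a1 := dot_Irr_self (i1 χ hχ)
  have a2 : dot G (ε • ν1 χ) (δ • ν2 η') = 0 := by
    rw [e, dot_smul_left, dot_smul_right, hν2.dot_eq hη hη',
      dot_Irr_ne (hS (hS2 hη)) (hS (hS2 hη')) n2.symm]; simp
  have a3 : dot G (ε • ν1 χ') (δ • ν2 η) = 0 := by
    rw [← e, dot_smul_left, dot_smul_right, hν1.dot_eq hχ' hχ,
      dot_Irr_ne (hS (hS1 hχ')) (hS (hS1 hχ)) n1]; simp
  have a4 := dot_Irr (i1 χ' hχ') (i2 η' hη')
  nth_rewrite 2 [e] at a1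
  rw [dot_smul_left, dot_smul_right] at a1 a2 a3 a4
  have p1 := Irr_deg_pos (hS (hS1 hχ'))
  have p2 := Irr_deg_pos (hS (hS2 hη'))
  split_ifs at a4
  · have : ((deg χ' * deg η' + deg χ * deg η : ℕ) : ℂ) = 0 := by
      push_cast
      linear_combination ε * conj δ * k - deg χ' * deg η' * a1 + deg χ' * deg η * a2 +
        deg χ * deg η' * a3 - deg χ * deg η * a4
    have := Nat.cast_eq_zero.1 this
    have := Nat.mul_pos p1 p2
    omega
  · have : ((deg χ' * deg η' : ℕ) : ℂ) = 0 := by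
      push_cast
      linear_combination ε * conj δ * k - deg χ' * deg η' * a1 + deg χ' * deg η * a2 +
        deg χ * deg η' * a3 - deg χ * deg η * a4
    exact (Nat.mul_pos p1 p2).ne' (Nat.cast_eq_zero.1 this)

theorem bridge_coherent_irr (hS : S1 ∪ S2 ⊆ Irr L) (hd : Disjoint S1 S2)
    (hν1 : CohWith L G S1 τ ν1) (hν2 : CohWith L G S2 τ ν2)
    (o : ∀ χ ∈ S1, ∀ η ∈ S2, dot G (ν1 χ) (ν2 η) = 0) (hχ : χ ∈ S1) (hη : η ∈ S2)
    (he : τ (χ 1 • η - η 1 • χ) = χ 1 • ν2 η - η 1 • ν1 χ) : Coherent L G (S1 ∪ S2) τ := by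
  have i1 : ∀ ξ ∈ S1, ξ ∈ Irr L := fun ξ hξ => hS (Finset.mem_union_left _ hξ)
  have i2 : ∀ ξ ∈ S2, ξ ∈ Irr L := fun ξ hξ => hS (Finset.mem_union_right _ hξ)
  obtain ⟨ν, e, hν⟩ := Zisometry_of_iso (L := L) (G := G) (S := S1 ∪ S2)
    (fun ξ => if ξ ∈ S1 then ν1 ξ else ν2 ξ) (fun ξ hξ => by simp [nrm_Irr (hS hξ)])
    (fun ξ hξ η hη => dot_Irr_ne (hS hξ) (hS hη)) (fun ξ hξ η hη => by
      split_ifs with a b b
      · exact hν1.dot_eq a b
      · rw [o _ a _ ((Finset.mem_union.1 hη).resolve_left b),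
          dot_Irr_ne (hS hξ) (hS hη) fun e => b (e ▸ a)]
      · rw [dot_zero_symm (o _ b _ ((Finset.mem_union.1 hξ).resolve_left a)),
          dot_Irr_ne (hS hξ) (hS hη) fun e => a (e ▸ b)]
      · exact hν2.dot_eq ((Finset.mem_union.1 hξ).resolve_left a)
          ((Finset.mem_union.1 hη).resolve_left b)) (fun ξ hξ => by
      split_ifs with a
      · exact hν1.mem a
      · exact hν2.mem ((Finset.mem_union.1 hξ).resolve_left a))
  have e1 : ∀ ξ ∈ S1, ν ξ = ν1 ξ := fun ξ hξ => by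
    rw [e ξ (Finset.mem_union_left _ hξ), if_pos hξ]
  have e2 : ∀ ξ ∈ S2, ν ξ = ν2 ξ := fun ξ hξ => by
    rw [e ξ (Finset.mem_union_right _ hξ), if_neg (Finset.disjoint_right.1 hd hξ)]
  have hz := Irr_apply_one_ne_zero (i1 χ hχ)
  have hz' := Irr_apply_one_ne_zero (i2 η hη)
  refine ⟨ν, hν, fun ξ hξ => eq_on_ZS1 hz (fun ζ hζ => ?_) hξ⟩
  rcases Finset.mem_union.1 hζ with hζ | hζ
  · rw [hν1.sub_smul (fun χ hχ => Irr_ZIrr (i1 χ hχ)) (mem_ZS_of_mem hζ)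
      (mem_ZS_of_mem hχ) hz, map_sub, map_smul, e1 _ hζ, e1 _ hχ]
  · have : ζ - (ζ 1 / χ 1) • χ =
        (ζ - (ζ 1 / η 1) • η) + (ζ 1 / (χ 1 * η 1)) • (χ 1 • η - η 1 • χ) := by
      ext x; simp only [Pi.sub_apply, Pi.add_apply, Pi.smul_apply, smul_eq_mul]; field_simp; ring
    rw [map_sub, map_smul, this, map_add, map_smul,
      hν2.sub_smul (fun χ hχ => Irr_ZIrr (i2 χ hχ)) (mem_ZS_of_mem hζ) (mem_ZS_of_mem hη) hz',
      he, e1 _ hχ, e2 _ hζ]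
    ext x; simp only [Pi.sub_apply, Pi.add_apply, Pi.smul_apply, smul_eq_mul]; field_simp; ring

theorem mem_seqIndD_Frob (h : FrobKer L K) :
    χ ∈ seqIndD K L K ⊥ ↔ χ ∈ Irr L ∧ ¬ K ≤ cfker χ := by
  rw [mem_seqIndD_bot]
  refine ⟨?_, fun ⟨a, b⟩ => ?_⟩
  · rintro ⟨θ, h1, h2, rfl⟩; exact irr_induced_Frobenius_ker h h1 h2
  · obtain ⟨θ, h1, h2, e⟩ := Frobenius_Ind_irrP h a b
    exact ⟨θ, h1, h2, e.symm⟩

theorem FrobKer_nil (h : FrobKer L K) : Group.IsNilpotent K :=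
  let ⟨_, h⟩ := h.exists_frob; Gen.Frobenius_kernel_nil h

theorem card_eq_of_subsingleton (h : FrobKer L K) (hc : (seqIndD K L K ⊥).card ≤ 1) :
    #K = K.relIndex L + 1 := by
  obtain ⟨ζ, hζ, d1⟩ := exists_linInd h.lt.le (nilpotent_sol (FrobKer_nil h)) (normal_bot K)
    (bot_lt_iff_ne_bot.2 h.ne_bot)
  have s := sum_seqIndC1_square h.normal
  rw [Finset.sum_eq_single ζ (fun ξ hξ ne => absurd (Finset.card_le_one.1 hc _ hξ _ hζ) ne)
    (fun n => absurd hζ n), nrm_Irr (FrobKer_seqIndD_irr h hζ), div_one, deg_eq_of d1, sq,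
    mul_right_inj' (Nat.cast_pos.2 (PF.relIndex_pos K L)).ne'] at s
  exact_mod_cast (eq_sub_iff_add_eq.1 s).symm

theorem exists_ne_zero_of_card (h : FrobKer L K) (hc : 1 < (seqIndD K L K ⊥).card) :
    ∃ α ∈ ZS1 (seqIndD K L K ⊥), α ≠ 0 := by
  obtain ⟨a, ha, b, hb, ne⟩ := Finset.one_lt_card.1 hc
  exact exists_ne_zero_ZS1_Irr ha hb (FrobKer_seqIndD_irr h ha) (FrobKer_seqIndD_irr h hb) ne

theorem elemAb_of_card (h : FrobKer L K) (hc : #K = K.relIndex L + 1) :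
    ∃ p : ℕ, p.Prime ∧ IsElementaryAbelian p K := by
  have hZ := center_nil_ne_bot (FrobKer_nil h) h.ne_bot
  have hZn := h.normal.center
  have key : ∀ B : Subgroup X, B ⊴ L → B ≤ K → B ≠ ⊥ → B = K := fun B hB hBK h1 => by
    have d := h.dvd_card hB hBK
    have l := (Subgroup.one_lt_card_iff_ne_bot B).2 h1
    have := Nat.le_of_dvd (by omega) d
    exact Subgroup.eq_of_le_of_card_ge hBK (by omega)
  have hK : Z[K] = K := key _ hZn inf_le_left hZ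
  have ab : IsMulCommutative K := ⟨⟨fun a b => Subtype.ext
    (mem_cent.1 (hK.ge a.2).2 b b.2).symm⟩⟩
  obtain ⟨p, hp, hd⟩ := Nat.exists_prime_and_dvd ((Subgroup.one_lt_card_iff_ne_bot K).2 h.ne_bot).ne'
  haveI := Fact.mk hp
  obtain ⟨z, hz⟩ := exists_prime_orderOf_dvd_card' p hd
  let B : Subgroup X :=
    { carrier := {x | x ∈ K ∧ x ^ p = 1}
      mul_mem' := fun {a b} ha hb => ⟨mul_mem ha.1 hb.1, by
        have : Commute a b := (mem_cent.1 (hK.ge ha.1).2 b hb.1).symm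
        rw [this.mul_pow, ha.2, hb.2, mul_one]⟩
      one_mem' := ⟨one_mem _, one_pow _⟩
      inv_mem' := fun {a} ha => ⟨inv_mem ha.1, by rw [inv_pow, ha.2, inv_one]⟩ }
  have hB : B = K := key B (normalIn_of_conj (fun x hx => h.lt.le hx.1) fun x hx k hk =>
    ⟨h.normal.conj_mem hx hk.1, by rw [conj_pow, hk.2]; simp⟩) (fun x hx => hx.1) (fun e => by
      have : (z : X) ∈ B := ⟨z.2, by rw [← Subgroup.coe_pow, ← hz, pow_orderOf_eq_one]; rfl⟩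
      rw [e, Subgroup.mem_bot, OneMemClass.coe_eq_one] at this
      exact hp.ne_one (by rw [← hz, this, orderOf_one]))
  exact ⟨p, hp, ab, fun a ha => (hB.ge ha).2⟩

theorem comm_of_even (h : FrobKer L K) (hodd : Odd #K) (he : ¬ Odd #L) : IsMulCommutative K := by
  haveI := Fact.mk Nat.prime_two
  obtain ⟨w, hw⟩ := exists_prime_orderOf_dvd_card' (G := L) 2
    (even_iff_two_dvd.1 (Nat.not_odd_iff_even.1 he))
  have h2 : (w : X) * w = 1 := by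
    rw [← sq, ← Subgroup.coe_pow, ← hw, pow_orderOf_eq_one]; rfl
  refine (Gen.fpf_invol (h.normal.norm w.2) (by rw [h2]; exact one_mem _)
    (h.reg w.2 fun hK => ?_)).1
  have := orderOf_dvd_natCard (⟨w, hK⟩ : K)
  rw [← Subgroup.orderOf_coe, Subgroup.orderOf_coe w, hw] at this
  exact (Nat.not_even_iff_odd.2 hodd) (even_iff_two_dvd.2 this)

theorem TI_isoOn (h : FrobKer L K) (hTI : NormedTI K^# ⊤ L) :
    IsoOn L ⊤ (ZS1 (seqIndD K L K ⊥)) (Ind L ⊤) ∧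
      ∀ φ ∈ ZS1 (seqIndD K L K ⊥), Ind L ⊤ φ 1 = 0 :=
  have hT : seqIndD K L K ⊥ ⊆ seqIndT K L := seqIndD_subset_seqIndT
  ⟨⟨fun φ hφ ψ hψ => normedTI_isometry hTI (seqInd_ZS1_on h.normal hT hφ)
      (seqInd_ZS1_on h.normal hT hψ),
    fun φ hφ => ZIrr_Ind (seqInd_ZS_vchar h.normal hT (ZS1_le hφ)) le_top⟩,
    fun φ hφ => by rw [Ind_apply_one le_top, (mem_ZS1.1 hφ).2, mul_zero]⟩

/-- Sibley's theorem for a TI Frobenius kernel of odd order. -/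
theorem Sibley_odd_ker (h : FrobKer L K) (hTI : NormedTI K^# ⊤ L) (hodd : Odd #K) :
    Coherent L ⊤ (seqIndD K L K ⊥) (Ind L ⊤) := by
  by_cases he : Odd #L
  · obtain ⟨E, hE⟩ := h.exists_frob
    exact Sibley_coherence he (FrobKer_nil h) hTI hE.sd (Or.inl h)
  · exact coherent_der_irr h (TI_isoOn h hTI).1 (TI_isoOn h hTI).2
      (Subgroup.commutator_self_eq_bot_iff.2 (comm_of_even h hodd he)).le

/-- The characters of `L` not trivial on `Z`, in the vocabulary of the statements. -/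
theorem filter_eq_image (Z : Subgroup X) (hZ : Z ≤ L) :
    ((Irr L).filter (fun χ => ¬ Z ≤ cfker χ) : Set (X → ℂ)) =
      ext L '' {χ : L → ℂ | IsIrrCharacter L χ ∧ ∃ z : L, (z : X) ∈ Z ∧ χ z ≠ χ 1} := by
  ext φ
  simp only [Finset.coe_filter, Set.mem_setOf_eq, Set.mem_image]
  constructor
  · rintro ⟨h1, h2⟩
    obtain ⟨z, hz, h3⟩ := (not_le_cfker_Irr h1).1 h2
    obtain ⟨θ, hθ, rfl⟩ := exists_ext_of_Irr h1
    exact ⟨θ, ⟨hθ, ⟨z, hZ hz⟩, hz, by rwa [ext_of_mem _ (hZ hz), ext_one] at h3⟩, rfl⟩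
  · rintro ⟨θ, ⟨hθ, z, hz, h3⟩, rfl⟩
    exact ⟨ext_mem_Irr.2 hθ, (not_le_cfker_Irr (ext_mem_Irr.2 hθ)).2
      ⟨z, hz, by rwa [ext_coe, ext_one]⟩⟩

theorem seqIndD_eq_filter (h : FrobKer L K) :
    seqIndD K L K ⊥ = (Irr L).filter (fun χ => ¬ K ≤ cfker χ) := by
  ext χ; rw [mem_seqIndD_Frob h, Finset.mem_filter]

theorem card_seqIndD_eq (h : FrobKer L K) : (seqIndD K L K ⊥).card =
    Nat.card {χ : L → ℂ // IsIrrCharacter L χ ∧ ∃ z : L, (z : X) ∈ K ∧ χ z ≠ χ 1} := by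
  rw [← Set.ncard_coe_finset, seqIndD_eq_filter h, filter_eq_image K h.lt.le,
    Set.ncard_image_of_injective _ (ext_injective L)]
  rfl

theorem isCoherent_of_TI {X : Type*} [Group X] [Fintype X] {L K : Subgroup X} [Fintype L] (h : FrobKer L K)
    (hc : Coherent L ⊤ (seqIndD K L K ⊥) (Ind L ⊤)) (h1 : 1 < (seqIndD K L K ⊥).card) :
    IsCoherent {χ : L → ℂ | IsIrrCharacter L χ ∧ ∃ z : L, (z : X) ∈ K ∧ χ z ≠ χ 1} {1}ᶜ
      fun α => indFun L α :=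
  hc.isCoherent_ext (by rw [seqIndD_eq_filter h, filter_eq_image K h.lt.le])
    (fun a _ => Ind_ext L a) (exists_ne_zero_of_card h h1)

theorem frobKer_normalizer (h1 : K ≠ ⊥) (hlt : K < N[K])
    (hC : ∀ k ∈ K, k ≠ 1 → Subgroup.centralizer ({k} : Set X) ≤ K) : FrobKer N[K] K :=
  ⟨⟨hlt.le, le_rfl⟩, h1, hlt, fun x hx hx1 => inf_le_right.trans (hC x hx hx1)⟩

end Cfsg.Agent.Perm
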