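import Cfsg.Agent.Perm.RegNormal
import Cfsg.Agent.Perm.Affine
import Cfsg.Agent.Perm.ZassAb
import Cfsg.Agent.Classical.FieldCongr
import Mathlib.NumberTheory.LucasLehmer

/-! Transitive groups of degree `p + 1` and order `(p + 1) p d` with `d < p`
(`classify_prime_add_one`). -/

set_option autoImplicit false

namespace Cfsg.Agent.Perm

open Subgroup Cfsg.Agent.BG MulAction Matrix

variable {G Ω : Type*} [Group G] [MulAction G Ω] [Finite G] [Finite Ω] [FaithfulSMul G Ω]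

/-- a subgroup of prime order `p` of a point stabiliser in degree `p + 1` is regular on the rest -/
theorem regular_of_prime {p : ℕ} (hp : p.Prime) (hΩ : Nat.card Ω = p + 1) {a : Ω} {P : Subgroup G}
    (hP : #P = p) (hPa : P ≤ stabilizer G a) {y : Ω} (hy : y ≠ a) :
    (∀ u ∈ P, u • y = y → u = 1) ∧ ∀ z, z ≠ a → ∃ u ∈ P, u • y = z := by
  have reg : ∀ x : Ω, (∃ u ∈ P, u • x ≠ x) → ∀ u ∈ P, u • x = x → u = 1 := fun x ⟨v, hv, hx⟩ u hu e => by
    by_contra u1
    have : P ⊓ stabilizer G x = P := ((Nat.dvd_prime hp).1 (hP ▸ cardSg inf_le_left)).elim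
      (fun k => absurd (card_eq_one.1 k) (trivgPn.2 ⟨u, mem_inf.2 ⟨hu, e⟩, u1⟩))
      fun k => eq_of_card_le inf_le_left (by rw [k, hP])
    exact hx (this.ge hv).2
  obtain ⟨v, hv, v1⟩ := trivgPn.1 (ne_bot_of_prime (hP ▸ hp))
  obtain ⟨x, hx⟩ := exists_smul_ne (α := Ω) v1
  have orb : ∀ z, z ≠ a → ∃ u ∈ P, u • x = z := fun z hz => by
    have h1 := card_orbit_mul_card_stabilizer (G := P) x
    rw [(stabilizer_eq_bot_iff P x).2 (reg x ⟨v, hv, hx⟩), card_bot, mul_one, hP] at h1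
    have : orbit P x = {a}ᶜ := Set.eq_of_subset_of_ncard_le (by
      rintro _ ⟨u, rfl⟩ e
      have : x = a := by
        rw [Set.mem_singleton_iff, smul_eq_iff_eq_inv_smul] at e
        exact e.trans (hPa (inv_mem u.2))
      exact hx (this ▸ hPa hv)) (by
        have := ncard_compl_singleton a
        rw [← Nat.card_coe_set_eq (orbit P x)]; omega)
    obtain ⟨u, hu⟩ := this.ge hz
    exact ⟨u, u.2, hu⟩
  obtain ⟨w, hw, rfl⟩ := orb y hy
  have ab := cyclic_abelian (prime_cyclic (hP ▸ hp))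
  refine ⟨reg _ ⟨v, hv, by rwa [← mul_smul, ab.comm hv hw, mul_smul, Ne, smul_left_cancel_iff]⟩,
    fun z hz => ?_⟩
  obtain ⟨u, hu, e⟩ := orb z hz
  exact ⟨u * w⁻¹, mul_mem hu (inv_mem hw), by simp [mul_smul, e]⟩

theorem classify_prime_add_one [IsPretransitive G Ω] {p d : ℕ} (hp : p.Prime)
    (hΩ : Nat.card Ω = p + 1) (hG : Nat.card G = (p + 1) * p * d) (hd : d < p) :
    (d = p - 1 ∧ Nonempty (G ≃* ProjGenLinGroup (Fin 2) (ZMod p))) ∨
    (2 * d = p - 1 ∧ Nonempty (G ≃* ProjectiveSpecialLinearGroup (Fin 2) (ZMod p))) ∨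
    (∃ q : ℕ, q.Prime ∧ p + 1 = 2 ^ q ∧ (d = 1 ∨ d = q) ∧ ∃ e : Ω ≃ GaloisField 2 q,
      ∀ g : G, e.symm.trans ((toPerm g).trans e) ∈ semiaffineGroup (GaloisField 2 q)) := by
  haveI := Fact.mk hp
  have cS : ∀ a : Ω, #(stabilizer G a) = p * d := fun a => by
    have := card_mul_card_stabilizer (G := G) a
    rw [hΩ, hG, mul_assoc] at this
    exact Nat.eq_of_mul_eq_mul_left p.succ_pos this
  have d0 : 0 < d := Nat.pos_of_ne_zero (by rintro rfl; exact Nat.card_pos.ne' hG)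
  have ex : ∀ a : Ω, ∃ P, P ⊴ stabilizer G a ∧ #P = p := fun a => by
    let Q : Sylow p (stabilizer G a) := default
    have h1 : #(Q : Subgroup (stabilizer G a)) = p := by
      rw [Q.card_eq_multiplicity, cS, Nat.factorization_mul hp.ne_zero d0.ne', Finsupp.add_apply,
        hp.factorization_self, Nat.factorization_eq_zero_of_lt hd, add_zero, pow_one]
    have h2 := Q.card_dvd_index
    have h3 := card_mul_index (Q : Subgroup (stabilizer G a))
    rw [h1, cS, mul_right_inj' hp.ne_zero] at h3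
    have h4 := card_sylow_modEq_one p (stabilizer G a)
    rw [Nat.ModEq, Nat.mod_eq_of_lt ((Nat.le_of_dvd d0 (h3 ▸ h2)).trans_lt hd),
      Nat.mod_eq_of_lt hp.one_lt] at h4
    haveI := (Nat.card_eq_one_iff_unique.1 h4).1
    exact ⟨_, normal_map_subtype Q.normal_of_subsingleton, by rw [card_map_of_injective (subtype_injective _), h1]⟩
  choose P hP cP using ex
  have reg := fun a y (hy : y ≠ a) => regular_of_prime hp hΩ (cP a) (hP a).le hy
  have h2 : IsMultiplyPretransitive G Ω 2 := is_two_pretransitive_iff.2 fun {a b c e} hab hce => by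
    obtain ⟨g, rfl⟩ := exists_smul_eq G a c
    obtain ⟨u, hu, k⟩ := (reg (g • a) (g • b) (by simpa using hab.symm)).2 e hce.symm
    exact ⟨u * g, by rw [mul_smul, (hP _).le hu], by rw [mul_smul, k]⟩
  have h3 : ∀ g : G, ∀ a b c : Ω, a ≠ b → b ≠ c → a ≠ c → g • a = a → g • b = b → g • c = c →
      g = 1 := fun g a b c hab hbc hac ha hb hc => by
    obtain ⟨r1, r2⟩ := reg a b hab.symm
    obtain ⟨u, hu, rfl⟩ := r2 c hac.symm
    have e : g * u * g⁻¹ = u := eq_of_smul_eq_of_semiregular r1 ((hP a).conj_mem ha hu) hu (by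
      rw [mul_smul, mul_smul, inv_smul_eq_iff.2 hb.symm, hc])
    have e' : zpowers u = P a := eq_of_card_le (zpowers_le.2 hu) (by
      rw [cP, Nat.card_zpowers]
      exact (((Nat.dvd_prime hp).1 (cP a ▸ Subgroup.orderOf_dvd_natCard _ hu)).resolve_left fun k =>
        hbc (by simp [orderOf_eq_one_iff.1 k])).ge)
    refine eq_of_smul_eq_smul (α := Ω) fun x => ?_
    rcases eq_or_ne x a with rfl | hx
    · simp [ha]
    obtain ⟨v, hv, rfl⟩ := r2 x hx
    have : v ∈ C1[g] := (zpowers_le.2 (mem_cent1.2 (mul_inv_eq_iff_eq_mul.1 e).symm)) (e'.ge hv)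
    rw [one_smul, ← mul_smul, ← mem_cent1.1 this, mul_smul, hb]
  letI := Fintype.ofFinite Ω
  obtain ⟨a, b, c, hab, hac, hbc⟩ := (Fintype.two_lt_card_iff (α := Ω)).1 (by
    have := hp.two_le; rw [← Nat.card_eq_fintype_card]; omega)
  have cD : #(stabilizer G a ⊓ stabilizer G b) = d := by
    have h1 := card_orbit_mul_card_stabilizer (G := stabilizer G a) b
    have : orbit (stabilizer G a) b = {a}ᶜ := Set.ext fun z => ⟨by
      rintro ⟨u, rfl⟩ e
      rw [Set.mem_singleton_iff, smul_eq_iff_eq_inv_smul] at e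
      exact hab (e.trans (inv_mem u.2)).symm, fun hz =>
        let ⟨u, hu, e⟩ := (reg a b hab.symm).2 z hz; ⟨⟨u, (hP a).le hu⟩, e⟩⟩
    have h4 := ncard_compl_singleton a
    rw [card_stabilizer_subgroup, this, Nat.card_coe_set_eq, cS, show ({a}ᶜ : Set Ω).ncard = p by omega]
      at h1
    exact Nat.eq_of_mul_eq_mul_left hp.pos h1
  have pgl : ∀ (K : Type) [Field K] [Fintype K], Nat.card Ω = Fintype.card K + 1 →
      Nonempty (K ≃+* ZMod p) := fun K _ _ h => ⟨(ZMod.ringEquivOfPrime K hp (by omega)).symm⟩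
  have hs : ∀ g : G, ∀ x y z : Ω, x ≠ y → x ≠ z → y ≠ z → g • x = x → g • y = y → g • z = z →
      g = 1 := fun g x y z h1 h4 h5 => h3 g x y z h1 h5 h4
  have aff : ∀ (N : Subgroup G) [N.Normal] (q : ℕ), Abelem 2 N → IsPretransitive N Ω →
      (∀ u ∈ N, u • a = a → u = 1) → Nat.card Ω = 2 ^ q → ∃ e : Ω ≃ GaloisField 2 q,
      ∀ g : G, e.symm.trans ((toPerm g).trans e) ∈ semiaffineGroup (GaloisField 2 q) := by
    intro N _ q hV ht hr hq
    haveI := Fact.mk Nat.prime_two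
    haveI : Nontrivial (AbV hV) := Finite.one_lt_card_iff_nontrivial.1 (by
      rw [AbV.card, card_eq_of_regular ht a hr]; have := hp.pos; omega)
    haveI := (hP a).subgroupOf
    obtain ⟨F, _, _, e, he, -⟩ := semilinear_of_irr (linRep hV (stabilizer G a))
      (A := (P a).subgroupOf _) ⟨⟨fun x y => Subtype.ext (Subtype.ext
        ((cyclic_abelian (prime_cyclic ((cP a).symm ▸ hp))).comm x.2 y.2))⟩⟩
      fun U hU => or_iff_not_imp_left.2 fun h0 => eq_top_iff.2 fun w _ => by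
        obtain ⟨v, hv, v0⟩ := (AddSubgroup.bot_or_exists_ne_zero U).resolve_left h0
        rcases eq_or_ne w 0 with rfl | w0
        · exact zero_mem U
        have n : ∀ v : AbV hV, v ≠ 0 → v.val • a ≠ a := fun v hv e =>
          hv (AbV.val_eq_one.1 (hr _ v.val_mem e))
        obtain ⟨u, hu, k⟩ := (reg a _ (n v v0)).2 _ (n w w0)
        convert hU ⟨u, (hP a).le hu⟩ hu v hv
        refine AbV.ext (eq_of_smul_eq_of_semiregular hr w.val_mem (AbV.val_mem _) ?_)
        rw [val_linRep, mul_smul, mul_smul, (hP a).le (inv_mem hu), k]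
    exact (exists_semiaffine hV ht a hr hq e he).imp fun _ h => h.1
  rcases eq_or_ne p 2 with rfl | p2
  · obtain ⟨K, _, _, hK, ⟨e⟩⟩ := sharp3_equiv_PGL_of_odd (G := G) (Ω := Ω)
      (by
        classical
        refine isMultiplyPretransitive_succ h2 {a, b} (Finset.card_pair hab) fun x y hx hy =>
          ⟨1, by simp, ?_⟩
        have : ({a, b}ᶜ : Finset Ω).card = 1 := by
          rw [Finset.card_compl, Finset.card_pair hab, ← Nat.card_eq_fintype_card, hΩ]
        exact (one_smul G x).trans (Finset.card_le_one.1 this.le _ (Finset.mem_compl.2 hx) _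
          (Finset.mem_compl.2 hy))) hs (by rw [hΩ]; decide) (by omega)
    exact Or.inl ⟨by omega, ⟨e.trans (Classical.pglCongr (pgl K hK).some)⟩⟩
  have po := hp.odd_of_ne_two p2
  rcases eq_or_ne d 1 with rfl | d1
  · haveI : Nontrivial Ω := ⟨a, b, hab⟩
    obtain ⟨N, hN, -, hm, ht, ab, r, hr, hexp⟩ := sharp2_exists_kernel h2 fun g x y hxy hx hy => by
      obtain ⟨k, rfl, rfl⟩ := exists_smul_two h2 hab hxy
      have : k⁻¹ * g * k⁻¹⁻¹ ∈ stabilizer G a ⊓ stabilizer G b :=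
        ⟨by simp [mul_smul, hx], by simp [mul_smul, hy]⟩
      rw [card_eq_one.1 cD, mem_bot, conj_eq_one_iff] at this
      exact this
    have hr' : ∀ u ∈ N, u • a = a → u = 1 := fun u hu e => ((hm u).1 hu).resolve_right fun k => k a e
    haveI := Fact.mk hr
    have hV : Abelem r N := ⟨isMulCommutative_of_forall ab, hexp⟩
    obtain ⟨q, hq⟩ := hV.pg.exists_card_eq
    rw [card_eq_of_regular ht a hr'] at hq
    obtain rfl : 2 = r := (Nat.prime_dvd_prime_iff_eq Nat.prime_two hr).1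
      (Nat.prime_two.dvd_of_dvd_pow (hq ▸ hΩ ▸ po.add_one.two_dvd))
    exact Or.inr (Or.inr ⟨q, Nat.Prime.of_mersenne (by rwa [mersenne, ← hq, hΩ]), hΩ ▸ hq, Or.inl rfl,
      aff N q hV ht hr' hq⟩)
  have hD : stabilizer G a ⊓ stabilizer G b ≠ ⊥ := fun e => d1 (by rw [← cD, e, card_bot])
  by_cases hN : ∃ N : Subgroup G, N.Normal ∧ IsPretransitive N Ω ∧ ∀ a : Ω, stabilizer N a = ⊥
  · obtain ⟨N, _, ht, hr⟩ := hN
    have hr' := (stabilizer_eq_bot_iff N a).1 (hr a)
    obtain ⟨q, hq, e1, e2, hV⟩ := regular_normal_card h2 h3 hab hD N ht hr'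
    exact Or.inr (Or.inr ⟨q, hq, hΩ ▸ e1, Or.inr (cD ▸ e2), aff N q hV ht hr' e1⟩)
  have hZ : IsZassenhausGroup G Ω := ⟨inferInstance, h2, h3,
    let ⟨g, hg, g1⟩ := trivgPn.1 hD; ⟨g, g1, a, b, hab, hg.1, hg.2⟩,
    fun N h1 h4 => by_contra fun k => hN ⟨N, h1, h4, by simpa using k⟩⟩
  obtain ⟨F, hF, ht, -⟩ := Zass.exists_kernel hZ a
  have cF := Zass.card_kernel hab hF ht
  rcases Zass.classify_of_comm hZ hab hF (der1_eq_bot.2 (cyclic_abelian (prime_cyclic
    (by rwa [show #F = p by omega])))) with h | ⟨h, K, _, _, hK, -, ⟨e⟩⟩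
  · have t3 := Zass.three_of_card hZ hab h.ge
    obtain ⟨s, hsa, hsb, hsc⟩ := exists_smul_three t3 hab hac hbc hab.symm hbc hac
    obtain ⟨K, _, _, hK, ⟨e⟩⟩ := Sharp3.equiv_PGL_of_odd t3 hs hab hac hbc hsa hsb hsc hp p2 odd_one
      (by rw [hΩ, pow_one])
    exact Or.inl ⟨by omega, ⟨e.trans (Classical.pglCongr (pgl K hK).some)⟩⟩
  · exact Or.inr (Or.inl ⟨by omega, ⟨e.trans (Classical.pslCongr (pgl K hK).some)⟩⟩)

end Cfsg.Agent.Perm
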