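import Cfsg.Agent.Golay.Classes
import Cfsg.Agent.Golay.Stab
import Cfsg.Agent.Comp.Cent

/-! Local facts in `M24`: self-centralizing normal 2-subgroups of the involution centralizers (`cent_fixOct`, `Q64`,
`cent_Q64`), centralizers of elements of order three (`card_Cy` 1080, `card_CxB` 504, `card_KCy` 36 in the two-point
stabilizer `K22`), a Sylow 3-subgroup `P9` of `K22` with `conj_P9`. -/

set_option autoImplicit false
set_option maxRecDepth 100000

namespace Cfsg.Agent.M24Loc

open Cfsg.Agent.Comp Cfsg.Agent.Golay MulAction Finset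
open scoped Pointwise

theorem selfc {Q K : Subgroup MG} {L LK : List ℕ} (hL : CodesIn RM L Q) (hcl : Subgroup.closure (genSet RM L) = Q)
    (hK : Subgroup.centralizer (Q : Set MG) ≤ K) (hLK : CodesIn RM LK K) {a q : ℕ} (hN : Nat.card K = a * q)
    (hq : Nat.card Q = q) (h0 : 0 < a) (h : ℕ → ℕ) (fuel : ℕ)
    (hc : band (band (allL L fun c => Nat.blt c (Nat.pow 2 (Nat.mul 5 24)))
      (allL LK fun c => Nat.blt c (Nat.pow 2 (Nat.mul 5 24))))
      (band (allL L fun a => allL L fun b => commC mul24 a b)
        (Nat.ble a (chainK (keyedCj grpCM canCM) h fuel L LK))) = true) :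
    Subgroup.centralizer (Q : Set MG) = Q := by
  simp only [band_eq, Bool.and_eq_true, nble] at hc
  obtain ⟨⟨h1, h2⟩, h3, h4⟩ := hc
  have hL' := CodesIn_CM hL h1
  have h5 := chainK_mul_le (C := keyedCj grpCM canCM) h fuel L (fun b hb => by
    obtain ⟨g, -, hg⟩ := hL' b hb; exact ⟨toCj g, hg⟩) (H := Subgroup.centralizer (Q : Set MG))
    (fun b hb x hx g hg => by
      obtain ⟨u, hu, hr⟩ := hL' b hb
      have e : x = toCj u := canCM.func hx hr
      rw [e, smul_toCj, ← hg u hu, mul_inv_cancel_right]) LK K (CodesIn_CM hLK h2) hK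
  have h6 : Q ≤ Subgroup.centralizer (Q : Set MG) := by
    rw [← closure_CM hcl h1, Subgroup.centralizer_closure, Subgroup.closure_le]
    rintro g ⟨a, ha, hg⟩ k ⟨b, hb, hk⟩
    exact (commC_iff grpCM canCM hk hg).2 (allL_iff.1 (allL_iff.1 h3 b hb) a ha)
  refine (Subgroup.eq_of_le_of_card_ge h6 ?_).symm
  rw [hq]; rw [hN] at h5
  exact Nat.le_of_mul_le_mul_left ((Nat.mul_le_mul_right _ h4).trans h5) h0

theorem zA_mem : zA ∈ fixF MG oct0 := mem_fixF.2 fun _ ha => mem_fixS.1 (fixS_zA ▸ ha)

theorem cent_fixOct0 : Subgroup.centralizer (fixF MG oct0 : Set MG) = fixF MG oct0 :=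
  selfc codes_E16 closure_E16 (K := CA) (Subgroup.centralizer_le (by simpa using zA_mem))
    (codes_cent (L := [89053301974695481301600181090966529, 65293295545172292060043128508809954,
      134370220924998106508582500029929006, 218619391977108879760384822162244695,
      152292626183921422718093831954400337]) rep_zA.1 (by decide +kernel)) (a := 1344) card_CA (card_fixOct oct0_mem)
    (by norm_num) (fun a => a % 43) 20 (by decide +kernel)

theorem cent_fixOct {o : Finset GolayPt} (ho : o ∈ octads) :
    Subgroup.centralizer (fixF MG o : Set MG) ≤ fixF MG o := fun g hg => by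
  obtain ⟨k, hk, rfl⟩ := octad_trans oct0_mem ho
  have h1 : (⟨k, hk⟩ : MG)⁻¹ * g * (⟨k, hk⟩ : MG)⁻¹⁻¹ ∈ fixF MG oct0 := by
    rw [← cent_fixOct0]
    intro u hu
    have := hg _ (conj_mem_fixF (⟨k, hk⟩ : MG) hu)
    calc _ = (⟨k, hk⟩ : MG)⁻¹ * (⟨k, hk⟩ * u * (⟨k, hk⟩ : MG)⁻¹ * g) * ⟨k, hk⟩ := by group
      _ = _ := by rw [this]; group
  simpa [mul_assoc] using conj_mem_fixF (⟨k, hk⟩ : MG) h1

def t64 : List (ℕ × List ℕ) := [(4, [984818244535754528103549039458486304, 963721886883755259286232606933354528,
      610972711791184720857040928538394722, 589876195687847248275933451517984866]),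
     (5, [984818244535754528103549039458486304, 590072960059042287979885064796342304,
      720981692062171673584743151055243296, 220213109803259289183002082616117280]),
     (0, [984818244535754528103549039458486304, 967616069900692509306086327477895266,
      970408745037899174542809581725223937, 964009317987243155104936468951336003])]

/-- `O₂` of the sextet group. -/
def Q64 : Subgroup MG := Subgroup.closure (genSet RM (flatT t64))

theorem codes_t64 : CodesIn RM (flatT t64) CB := codes_cent rep_zB.1 (by decide +kernel)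
theorem card_Q64 : Nat.card Q64 = 64 := card_closure_of_ss par24 t64 (codes_t64.mono le_top) (by decide +kernel)
theorem Q64_le : Q64 ≤ CB := codes_t64.closure_le funcRM
theorem CB_le_norm : CB ≤ Subgroup.normalizer (Q64 : Set MG) :=
  le_normalizer_of_normOK par24 closure_CB codes_t64.closure rfl (by decide +kernel)
theorem zB_mem : zB ∈ Q64 := Subgroup.subset_closure ⟨cB, by decide +kernel, rep_zB.1⟩

theorem cent_Q64 : Subgroup.centralizer (Q64 : Set MG) = Q64 :=
  selfc codes_t64.closure rfl (K := CB) (Subgroup.centralizer_le (by simpa using zB_mem))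
    (codes_cent (L := [112472592940938766055246333024450743, 233908447867455513637269780657373282,
      190902517300724838420391260646485193]) rep_zB.1 (by decide +kernel)) (a := 120) card_CB card_Q64
    (by norm_num) (fun a => a % 235) 40 (by decide +kernel)

/-! ### elements of order three -/

theorem card_cent_le_fix {X : Type*} [MulAction MG X] {U : Set X} (hU : U.Finite) (hinv : ∀ g : MG, ∀ x ∈ U, g • x ∈ U)
    {x : X} (hx : x ∈ U) {y : MG} (hy : y • x = x) {L : List ℕ} (hL : CodesIn CM L (stabilizer MG x)) {c : ℕ}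
    (hc : CM c y) (h : ℕ → ℕ) (fuel : ℕ) {f s n b : ℕ} (hf : {o | o ∈ U ∧ y • o = o}.ncard = f)
    (hs : Nat.card (stabilizer MG x) = s) (h0 : 0 < n) (hb : f * s ≤ n * b)
    (hn : Nat.ble n (lenL ((keyedCj grpCM canCM).orbH h L fuel c)) = true) :
    Nat.card (Subgroup.centralizer {y}) ≤ b := by
  have h1 := card_cent_mul_le (S := (⊤ : Subgroup MG)) (z := y) (x := x) (F := {o | o ∈ U ∧ y • o = o})
    (hU.subset fun _ h => h.1) fun s _ e => ⟨hinv s x hx, e⟩
  rw [top_inf_eq, top_inf_eq, hf, hs] at h1
  have h2 := (nble.1 hn).trans (Keyed.le_ncard_orbitH (C := keyedCj grpCM canCM) (x := toCj y) hL hc h fuel)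
  have h3 : (orbit (stabilizer MG x) (toCj y)).ncard ≤
      {a : MG | a • x = x ∧ ∃ s ∈ (⊤ : Subgroup MG), s * y * s⁻¹ = a}.ncard :=
    Set.ncard_le_ncard (α := MG) (by
      rintro _ ⟨s, rfl⟩
      refine ⟨?_, s, trivial, rfl⟩
      exact (stabilizer MG x).mul_mem ((stabilizer MG x).mul_mem s.2 hy) ((stabilizer MG x).inv_mem s.2))
      (Set.toFinite _)
  exact Nat.le_of_mul_le_mul_left (((Nat.mul_le_mul_right _ (h2.trans h3)).trans h1).trans hb) h0

def cy : ℕ := 6058985767518930171220205701105777
noncomputable def y3 : MG := elt cy (by decide +kernel)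
theorem rep_y3 : CM cy y3 := ⟨elt_rep _ _, by decide +kernel⟩
theorem order_y3 : orderOf y3 = 3 := orderOf_prime_CM rep_y3 Nat.prime_three (by decide +kernel)
theorem fixS_y3 : fixS y3 ≠ ∅ := card_ne_zero.1 (rep_y3.1.card_fix.trans_ne (by decide +kernel)) |>.ne_empty

def gCy : List ℕ := [735585445743561798885791251938347127, 965010690152576531343407554825849280,
  382180839532286754726920497965074888, 294763052015718491894914745039595824]
theorem codes_Cy : CodesIn RM gCy (Subgroup.centralizer {y3}) := codes_cent rep_y3.1 (by decide +kernel)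

theorem card_Cy : Nat.card (Subgroup.centralizer {y3}) = 1080 := by
  refine le_antisymm ?_ (le_card_slp codes_Cy [2, 5, 4, 0] [] (by decide +kernel))
  refine card_cent_le_fix (U := trios) (Set.toFinite _) inv_trios trio0_mem
    ((Keyed.smul_eq_iff rep_y3.1 trio0_P trio0_P).2 (by decide +kernel)) (CodesIn_CM codes_Tr (by decide +kernel))
    rep_y3 (fun a => a % 44921) 900 (f := 15) ?_ card_Tr (n := 896) (by norm_num) (by norm_num) (by decide +kernel)
  have := fix_tr rep_y3.1 1
  rw [one_mul, inv_one, mul_one] at this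
  exact this.trans (by decide +kernel)

theorem card_CxB : Nat.card (Subgroup.centralizer {x3B}) = 504 := by
  refine le_antisymm ?_ (le_card_slp (codes_cent (L := [970378153176045174542902225234761760,
    842999362013964767955903034160109760, 645480143490991696982885774991646157]) rep_x3B.1 (by decide +kernel))
    [0, 1, 2] [] (by decide +kernel))
  refine card_cent_le_fix (U := sextets) (Set.toFinite _) inv_sextets sext0_mem
    ((Keyed.smul_eq_iff rep_x3B.1 sext0_P sext0_P).2 (by decide +kernel)) (CodesIn_CM codes_Sx (by decide +kernel))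
    rep_x3B (fun a => a % 159900) 2000 (f := 7) ?_ card_Sx (n := 1920) (by norm_num) (by norm_num) (by decide +kernel)
  have := fix_sx rep_x3B.1 1
  rw [one_mul, inv_one, mul_one] at this
  exact this.trans (by decide +kernel)

/-- a copy of `M22`. -/
abbrev K22 : Subgroup MG := stabilizer MG (EG.dec 2) ⊓ stabilizer MG (EG.dec 5)

theorem codesK {L : List ℕ} (h : band (allL L inM24) (band (allL L fun c => Nat.beq (get24 c 2) 2)
    (allL L fun c => Nat.beq (get24 c 5) 5)) = true) : CodesIn RM L K22 := by
  simp only [band_eq, Bool.and_eq_true] at h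
  exact (((codesM h.1).pt 2 (by rw [h.2.1]; rfl)).pt 5 (by rw [h.2.2]; rfl)).mono (by simp)

theorem equiv_K22 : Nonempty (K22 ≃* Spor.M22) := equiv22 (by decide +kernel)
theorem card_K22 : Nat.card K22 = 443520 := equiv_K22.elim fun e => (Nat.card_congr e.toEquiv).trans card_M22

theorem y3_mem : y3 ∈ K22 := by
  obtain ⟨g, hg, h⟩ := codesK (L := [cy]) (by decide +kernel) _ List.mem_cons_self
  exact funcRM h rep_y3.1 ▸ hg

theorem card_KCy : Nat.card ↥(K22 ⊓ Subgroup.centralizer {y3}) = 36 := by
  refine le_antisymm ?_ (le_card_slp ((codesK (L := [966182099583441531322624363496310816,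
    975346028712660580592452217730074656, 14774003175432130094118886108661809,
    981851772540373722282564238793804224]) (by decide +kernel)).centralizer grpM funcRM rep_y3.1 (by decide +kernel))
    [1, 0, 4] [] (by decide +kernel))
  have := chainK_mul_le (C := kPt) (fun a => a) 10 [2, 5] (fun b hb => ⟨_, kPt_P (by revert b; decide)⟩)
    (H := K22 ⊓ Subgroup.centralizer {y3}) (fun b hb x hx g hg => by
      simp only [List.mem_cons, List.not_mem_nil, or_false] at hb
      rcases hb with rfl | rfl
      · exact Keyed.func hx (kPt_P (by norm_num)) ▸ hg.1.1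
      · exact Keyed.func hx (kPt_P (by norm_num)) ▸ hg.1.2) gCy _ codes_Cy inf_le_right
  rw [card_Cy, show chainK _ _ _ _ _ = 30 by decide +kernel] at this
  omega

def t9 : List (ℕ × List ℕ) := [(0, [984818244535754528103549039458486304, 6058985767518930171220205701105777,
  731686827169861210071752413966010839]), (1, [984818244535754528103549039458486304,
  976707328252090282498707695113537632, 981851772540373722282564238793804224])]

def P9 : Subgroup MG := Subgroup.closure (genSet RM (flatT t9))
theorem codes_t9 : CodesIn RM (flatT t9) K22 := codesK (by decide +kernel)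
theorem P9_le : P9 ≤ K22 := codes_t9.closure_le funcRM
theorem card_P9 : Nat.card P9 = 3 ^ 2 := card_closure_of_ss par24 t9 (codes_t9.mono le_top) (by decide +kernel)
theorem lists_P9 : Lists CM (prodL mul24 t9 one24 []) P9 :=
  lists_of_trans par24 t9 codes_t9.closure.of_flatT card_P9 (by decide +kernel)

theorem conj_K22 {g : MG} (hg : g ∈ K22) (h : orderOf g = 3) : ∃ k ∈ K22, k * y3 * k⁻¹ = g := by
  have hk := CodesIn_CM (codesK (L := [984818244535754528103549039458486304, 26456331685142197409890674079631415,
    893083554885391352873937188933929261, 49677578226103256846960845834127918, 753033246566118169866921698350762377,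
    874033806794387809698805249271400748, 768603781576487885384900136720009896,
    597528244651413702063814092908399137]) (by decide +kernel)) (by decide +kernel)
  exact (conj_cases grpCM canCM Nat.prime_three P9_le card_P9 card_K22 (by norm_num) lists_P9 hk hk rep_y3 rep_y3
    (by decide +kernel) hg h).elim id id

theorem cube_P9 {g : MG} (hg : g ∈ P9) : g ^ 3 = 1 := by
  obtain ⟨c, hc, h⟩ := lists_P9.forall (f := fun c => Nat.beq (powC mul24 one24 c 3) one24) (by decide +kernel) hg
  exact (canCM.eq_iff (grpCM.pow hc 3) grpCM.one).2 (nbeq.1 h)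

theorem cube_P3 {g : MG} (hg : g ∈ P3) : g ^ 3 = 1 := by
  obtain ⟨c, hc, h⟩ := lists_P3.forall (f := fun c => Nat.beq (powC mul24 one24 c 3) one24) (by decide +kernel) hg
  exact (canCM.eq_iff (grpCM.pow hc 3) grpCM.one).2 (nbeq.1 h)

theorem ncard_P3 : {u | u ∈ P3 ∧ fixS u ≠ ∅}.ncard = 15 :=
  (lists_P3.ncard_eq canCM.func (by rw [card_P3]; decide +kernel)
    (pb := fun c => Nat.blt 0 (countLt 24 fun i => Nat.beq (get24 c i) i)) fun c g _ hc => by
      rw [nblt, ← hc.1.card_fix, card_pos, nonempty_iff_ne_empty]; rfl).trans (by decide +kernel)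

end Cfsg.Agent.M24Loc
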