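import Cfsg.Agent.Perm.Gleason
import Mathlib.GroupTheory.Perm.Cycle.Concrete
import Mathlib.GroupTheory.Perm.Cycle.Type

/-! Generously `k`-transitive actions (P. M. Neumann): `k`-transitivity, setwise and pointwise
stabilisers have the same orbits, and at most `p - 1` orbits of `p'`-length. -/

set_option autoImplicit false

open MulAction Function

namespace Cfsg.Agent.Perm

variable {G α : Type*} [Group G] [MulAction G α]

/-- every permutation of every `k+1`-set is induced by the group -/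
def Generous (G α : Type*) [Group G] [MulAction G α] (k : ℕ) : Prop :=
  ∀ s : Finset α, s.card = k + 1 → ∀ σ : Equiv.Perm ↥s, ∃ g : G, ∀ x : ↥s, g • (x : α) = σ x

/-- It suffices to induce all transpositions. -/
theorem generous_of_swap {k : ℕ}
    (h : ∀ s : Finset α, s.card = k + 1 → ∀ a ∈ s, ∀ b ∈ s, a ≠ b →
      ∃ g : G, g • a = b ∧ g • b = a ∧ ∀ c ∈ s, c ≠ a → c ≠ b → g • c = c) :
    Generous G α k := by
  classical
  intro s hs σ
  induction σ using Equiv.Perm.swap_induction_on with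
  | one => exact ⟨1, fun x => one_smul _ _⟩
  | swap_mul f x y hxy ih =>
    obtain ⟨g, hg⟩ := ih
    obtain ⟨t, h1, h2, h3⟩ := h s hs x x.2 y y.2 (fun h => hxy (Subtype.ext h))
    refine ⟨t * g, fun z => ?_⟩
    rw [mul_smul, hg, Equiv.Perm.mul_apply]
    rcases eq_or_ne (f z) x with h | h
    · rw [h, Equiv.swap_apply_left, h1]
    rcases eq_or_ne (f z) y with h' | h'
    · rw [h', Equiv.swap_apply_right, h2]
    rw [Equiv.swap_apply_of_ne_of_ne h h']
    exact h3 _ (f z).2 (fun e => h (Subtype.ext e)) (fun e => h' (Subtype.ext e))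

theorem Generous.exists_smul {k : ℕ} (hgen : Generous G α k)
    (s : Finset α) (hs : s.card + 1 = k) (a b : α) (ha : a ∉ s) (hb : b ∉ s) :
    ∃ g : G, (∀ c ∈ s, g • c = c) ∧ g • a = b := by
  classical
  rcases eq_or_ne a b with rfl | hab
  · exact ⟨1, fun c _ => one_smul _ _, one_smul _ _⟩
  obtain ⟨g, hg'⟩ := hgen (insert a (insert b s)) (by
    rw [Finset.card_insert_of_notMem (by simp [ha, hab]), Finset.card_insert_of_notMem hb, hs])
    (Equiv.swap ⟨a, by simp⟩ ⟨b, by simp⟩)
  refine ⟨g, fun c hc => ?_, ?_⟩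
  · have := hg' ⟨c, by simp [hc]⟩
    rw [Equiv.swap_apply_of_ne_of_ne (fun h => ha (by rw [← Subtype.mk.inj h]; exact hc))
      (fun h => hb (by rw [← Subtype.mk.inj h]; exact hc))] at this
    exact this
  · have := hg' ⟨a, by simp⟩
    rw [Equiv.swap_apply_left] at this
    exact this

theorem Generous.isMultiplyPretransitive [Finite α] {k : ℕ} (hgen : Generous G α k)
    (hk : k < Nat.card α) : IsMultiplyPretransitive G α k := by
  rcases k with _ | k
  · exact is_zero_pretransitive'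
  · exact isMultiplyPretransitive_succ_of_forall hk fun s hs => hgen.exists_smul s (by rw [hs])

/-- every permutation of a `k`-set is induced by an element fixing a given outside point -/
theorem Generous.exists_fix {k : ℕ} (hgen : Generous G α k) (s : Finset α) (hs : s.card = k)
    {a : α} (ha : a ∉ s) (g : G) (hg : ∀ x, g • x ∈ s ↔ x ∈ s) :
    ∃ h : G, h • a = a ∧ ∀ x ∈ s, h • x = g • x := by
  classical
  let τ : Equiv.Perm α := Equiv.Perm.ofSubtype ((MulAction.toPerm g).subtypePerm hg)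
  have h1 : ∀ x ∈ s, τ x = g • x := fun x hx => Equiv.Perm.ofSubtype_apply_of_mem _ hx
  have h2 : τ a = a := Equiv.Perm.ofSubtype_apply_of_not_mem _ ha
  have hτ : ∀ x, τ x ∈ insert a s ↔ x ∈ insert a s := fun x => by
    simp only [Finset.mem_insert]
    refine or_congr ?_ (Equiv.Perm.ofSubtype_apply_mem_iff_mem _ x)
    conv_lhs => rw [← h2]
    exact τ.injective.eq_iff
  obtain ⟨h, hh⟩ := hgen (insert a s) (by rw [Finset.card_insert_of_notMem ha, hs])
    (τ.subtypePerm hτ)
  exact ⟨h, (hh ⟨a, Finset.mem_insert_self _ _⟩).trans h2,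
    fun x hx => (hh ⟨x, Finset.mem_insert_of_mem hx⟩).trans (h1 x hx)⟩

theorem Generous.exists_fixing {k : ℕ} (hgen : Generous G α k) (s : Finset α) (hs : s.card = k)
    {a : α} (ha : a ∉ s) (g : G) (hg : ∀ x, g • x ∈ s ↔ x ∈ s) :
    ∃ h : G, (∀ x ∈ s, h • x = x) ∧ h • a = g • a := by
  obtain ⟨h, h1, h2⟩ := hgen.exists_fix s hs ha g⁻¹ (fun x => by rw [← hg, smul_inv_smul])
  exact ⟨g * h, fun x hx => by rw [mul_smul, h2 x hx, smul_inv_smul], by rw [mul_smul, h1]⟩

theorem Generous.exists_dvd_card_orbit [Finite G] [Finite α] {k : ℕ} (hgen : Generous G α k)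
    (hk : k < Nat.card α) {p : ℕ} (hp : p.Prime) (hpk : p ≤ k) (Γ : Finset α) (hΓ : Γ.card = k)
    (f : Fin p → α) (hf : ∀ i, f i ∉ Γ)
    (hdist : ∀ i j, i ≠ j → f j ∉ orbit (fixingSubgroup G (Γ : Set α)) (f i)) :
    ∃ i, p ∣ Nat.card (orbit (fixingSubgroup G (Γ : Set α)) (f i)) := by
  classical
  have := Fact.mk hp
  by_contra! hcon
  have hG := hgen.isMultiplyPretransitive hk
  set H := fixingSubgroup G (Γ : Set α)
  obtain ⟨T, hTΓ, hT⟩ := Finset.exists_subset_card_eq (hΓ ▸ hpk : p ≤ Γ.card)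
  -- the subgroup stabilising `T` and fixing `Γ \ T` pointwise
  let L : Subgroup G :=
    { carrier := {g | (∀ x, g • x ∈ T ↔ x ∈ T) ∧ ∀ x ∈ Γ \ T, g • x = x}
      one_mem' := by simp
      mul_mem' := fun {g h} hg hh => ⟨fun x => by rw [mul_smul, hg.1, hh.1],
        fun x hx => by rw [mul_smul, hh.2 x hx, hg.2 x hx]⟩
      inv_mem' := fun {g} hg => ⟨fun x => by rw [← hg.1, smul_inv_smul],
        fun x hx => by rw [inv_smul_eq_iff, hg.2 x hx]⟩ }
  have hLΓ : ∀ g ∈ L, ∀ x, g • x ∈ Γ ↔ x ∈ Γ := by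
    have : ∀ g ∈ L, ∀ x ∈ Γ, g • x ∈ Γ := fun g hg x hx => by
      by_cases h : x ∈ T
      · exact hTΓ ((hg.1 x).mpr h)
      · rw [hg.2 x (Finset.mem_sdiff.mpr ⟨hx, h⟩)]; exact hx
    exact fun g hg x => ⟨fun h => by simpa using this _ (L.inv_mem hg) _ h, this g hg x⟩
  have hHL : H ≤ L := fun g hg => by
    have h1 := (mem_fixingSubgroup_iff G).mp hg
    refine ⟨fun x => ⟨fun hx => ?_, fun hx => by rwa [h1 x (hTΓ hx)]⟩,
      fun x hx => h1 x (Finset.mem_sdiff.mp hx).1⟩
    rwa [← MulAction.injective g (h1 _ (hTΓ hx))]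
  -- `p` divides the index
  have hidx : p * Nat.card H ∣ Nat.card L := by
    obtain ⟨t, ht⟩ : T.Nonempty := by rw [← Finset.card_pos, hT]; exact hp.pos
    have horb : orbit L t = T := by
      ext x
      constructor
      · rintro ⟨g, rfl⟩; exact (g.2.1 t).mpr ht
      · intro hx
        obtain ⟨g, hg⟩ := exists_smul_eq_of_injOn hG Γ hΓ (Equiv.swap t x)
          (Equiv.injective _).injOn
        have hT' : ∀ y ∈ T, g • y ∈ T := fun y hy => by
          rw [hg y (hTΓ hy), Equiv.swap_apply_def]; split_ifs <;> assumption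
        refine ⟨⟨g, fun y => ⟨fun hy => ?_, hT' y⟩, fun y hy => ?_⟩, ?_⟩
        · obtain ⟨z, hz, hz'⟩ := Finset.surj_on_of_inj_on_of_card_le (s := T) (t := T)
            (fun y _ => g • y) hT' (fun _ _ _ _ h => MulAction.injective g h) le_rfl _ hy
          rwa [MulAction.injective g hz']
        · rw [Finset.mem_sdiff] at hy
          rw [hg y hy.1, Equiv.swap_apply_of_ne_of_ne (fun h : y = t => hy.2 (h ▸ ht))
            (fun h : y = x => hy.2 (h ▸ hx))]
        · change g • t = x
          rw [hg t (hTΓ ht), Equiv.swap_apply_left]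
    rw [← card_orbit_mul_card_stabilizer (G := L) t, horb, card_stabilizer_subgroup]
    refine Nat.mul_dvd_mul (by simp [hT]) (Subgroup.card_dvd_of_le (le_inf hHL fun g hg => ?_))
    exact (mem_fixingSubgroup_iff G).mp hg t (hTΓ ht)
  obtain ⟨P, hPL, hP, hPc⟩ := exists_pSubgroup_le (p := p) L
  have hfix : ∀ i, ∃ x ∈ orbit H (f i), ∀ g ∈ P, g • x = x := fun i =>
    exists_fixed_of_not_dvd hP _ (fun g hg x hx => by
      obtain ⟨h, h1, h2⟩ := hgen.exists_fixing Γ hΓ
        (a := x) (notMem_of_mem_orbit_fixing (G := G) (hf i) hx) g (hLΓ g (hPL hg))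
      rw [← h2]
      obtain ⟨k, rfl⟩ := hx
      exact ⟨⟨h, (mem_fixingSubgroup_iff G).mpr h1⟩ * k, mul_smul _ _ _⟩) (hcon i)
  choose δ hδ hδ' using hfix
  have hδinj : Injective δ := fun i j hij => by
    by_contra h
    refine hdist i j h ?_
    rw [← orbit_eq_iff.mpr (hδ i), hij, orbit_eq_iff.mpr (hδ j)]
    exact mem_orbit_self _
  let Γ' := (Γ \ T) ∪ Finset.univ.image δ
  have hΓ' : Γ'.card = k := by
    rw [Finset.card_union_of_disjoint, Finset.card_sdiff_of_subset hTΓ,
      Finset.card_image_of_injective _ hδinj]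
    · simp only [Finset.card_univ, Fintype.card_fin]; omega
    · rw [Finset.disjoint_right]
      intro x hx hx'
      obtain ⟨i, -, rfl⟩ := Finset.mem_image.mp hx
      exact notMem_of_mem_orbit_fixing (G := G) (hf i) (hδ i) (Finset.mem_sdiff.mp hx').1
  have hPle : P ≤ fixingSubgroup G (Γ' : Set α) := fun g hg =>
    (mem_fixingSubgroup_iff G).mpr fun x hx => by
      rcases Finset.mem_union.mp hx with hx | hx
      · exact (hPL hg).2 x hx
      · obtain ⟨i, -, rfl⟩ := Finset.mem_image.mp hx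
        exact hδ' i g hg
  have h1 := Subgroup.card_dvd_of_le hPle
  rw [card_fixingSubgroup_eq hG hΓ' hΓ, hPc] at h1
  have h2 : p ^ ((Nat.card L).factorization p + 1) ∣ Nat.card L := by
    rw [pow_succ']
    exact (Nat.mul_dvd_mul_left p h1).trans hidx
  exact Nat.pow_succ_factorization_not_dvd Nat.card_pos.ne' hp h2

end Cfsg.Agent.Perm
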