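import Cfsg.Agent.Perm.HSGraph
import Cfsg.Agent.Leech.Simple

/-! The Higman–Sims group embeds in the automorphism group of any `srg(100,22,0,6)` (`exists_HS_hom`). -/

set_option autoImplicit false

namespace Cfsg.Agent.Perm.HS

open Comp Leech MulAction

theorem ncard_orbit_sub {G X : Type*} [Group G] [MulAction G X] (K : Subgroup G) {x : X}
    (y : orbit K x) : (orbit (stabilizer K (⟨x, mem_orbit_self x⟩ : orbit K x)) y).ncard =
      (orbit ↥(K ⊓ stabilizer G x) (y : X)).ncard := by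
  rw [← Set.ncard_image_of_injective _ Subtype.val_injective]
  congr 1; ext u
  constructor
  · rintro ⟨_, ⟨g, rfl⟩, rfl⟩
    exact ⟨⟨g.1.1, g.1.2, congrArg Subtype.val g.2⟩, rfl⟩
  · rintro ⟨g, rfl⟩
    exact ⟨_, ⟨⟨⟨g.1, g.2.1⟩, Subtype.ext g.2.2⟩, rfl⟩, rfl⟩

theorem exists_HS_hom {V : Type*} [Finite V] {Δ : SimpleGraph V} (hΔ : Srg Δ 100 22 0 6) :
    ∃ f : St2 vv uu' →* (Δ ≃g Δ), Function.Injective f := by
  have h0 : orbit (St2 vv uu') uu = S2 vv uu' (-24) 0 :=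
    ((inv_S2 _ _ _ _).orbit_sub uu_mem').antisymm fun y hy =>
      let ⟨g, h1, h2⟩ := tr100 _ uu_mem' y hy; ⟨⟨g, h1⟩, h2⟩
  have : FaithfulSMul (St2 vv uu') (orbit (St2 vv uu') uu) := ⟨fun {g k} h =>
    inv_mul_eq_one.1 (Subtype.ext (faith_HS _ (g⁻¹ * k).2 fun z hz => by
      have := congrArg Subtype.val (h ⟨z, h0 ▸ hz⟩)
      change (g : CG) • z = (k : CG) • z at this
      change ((g : CG)⁻¹ * k) • z = z
      rw [mul_smul, ← this, inv_smul_smul]))⟩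
  have : Finite (orbit (St2 vv uu') uu) := h0 ▸ (fin_S2 _ _ _ _).to_subtype
  exact exists_hom_of_rank3 (a := (⟨uu, mem_orbit_self uu⟩ : orbit (St2 vv uu') uu))
    (b := ⟨z22, h0 ▸ orbs_100.sub 1 (mem_orbit_self _)⟩)
    (c := ⟨z77, h0 ▸ orbs_100.sub 2 (mem_orbit_self _)⟩)
    (by rw [Nat.card_coe_set_eq, h0, ncard_100]) ((ncard_orbit_sub _ _).trans (orbs_100.card 1))
    ((ncard_orbit_sub _ _).trans (orbs_100.card 2)) hΔ

end Cfsg.Agent.Perm.HS
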