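import Cfsg.Agent.Perm.Srg
import Cfsg.Agent.Golay.Witt

/-! The graphs of a Steiner system `S(3,6,22)`: `srg_block` (77,16,0,4), `srg_pb` (100,22,0,6);
uniqueness of the latter (`exists_iso_pb`, `srg100_iso`), order of its automorphism group
(`card_aut_pb`). -/

set_option autoImplicit false

namespace Cfsg.Agent.Perm.HS

open Finset Comp Comp.Steiner MulAction
open scoped Pointwise

section counts

variable {α : Type*} [Fintype α] [DecidableEq α] {B : Set (Finset α)}

theorem sum_card_inter (I J c : Finset α) :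
    ∑ d ∈ blk B I J, (d ∩ c).card = ∑ x ∈ c, cnt B (insert x I) J := by
  have h1 : ∀ d : Finset α, (d ∩ c).card = ∑ x ∈ c, if x ∈ d then 1 else 0 := fun d => by
    rw [← card_filter, filter_mem_eq_inter, inter_comm]
  simp only [h1]
  rw [sum_comm]
  refine sum_congr rfl fun x _ => ?_
  rw [← card_filter, cnt]
  congr 1; ext d; simp only [mem_filter, mem_blk, insert_subset_iff]; tauto

variable (hα : Fintype.card α = 22) (hB : IsSteinerSystem 3 6 B)
include hα hB

theorem cnt_le {I : Finset α} (hI : I.card ≤ 3) : cnt B I ∅ = lam 22 6 3 I.card :=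
  hα ▸ cnt_eq_lam_of_le hB (by norm_num) hI

theorem sum_add_cnt (I J : Finset α) {c : Finset α} (hc : c ∈ B) :
    ∑ x ∈ c, cnt B (insert x I) J + 2 * cnt B I (J ∪ c) =
      2 * cnt B I J + if c ∈ blk B I J then 4 else 0 := by
  have h1 : cnt B I (J ∪ c) = ∑ d ∈ blk B I J, if Disjoint c d then 1 else 0 := by
    rw [← card_filter, cnt]
    congr 1; ext d; simp only [mem_filter, mem_blk, disjoint_union_left]; tauto
  rw [← sum_card_inter, h1, mul_sum, ← sum_add_distrib, ← sum_ite_eq' (blk B I J) c fun _ => 4, cnt,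
    card_eq_sum_ones (blk B I J), mul_sum, ← sum_add_distrib]
  refine sum_congr rfl fun d hd => ?_
  have hd' := (mem_blk.1 hd).1
  simp only [disjoint_iff_inter_eq_empty, inter_comm c d, ← card_eq_zero (s := d ∩ c)]
  by_cases e : d = c
  · subst e
    rw [inter_self, hB.1 d hd', if_pos rfl]; rfl
  · rw [if_neg e]
    rcases inter_3_6_22 hα hB hd' hc e with h | h <;> rw [h] <;> rfl

theorem cnt_disj {b : Finset α} (hb : b ∈ B) : cnt B ∅ b = 16 := by
  rw [cnt_eq_tri hB (by norm_num) hb (empty_subset _) subset_rfl (disjoint_empty_left _), hα,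
    hB.1 b hb, card_empty]
  decide +kernel

theorem cnt_pt_disj {b : Finset α} (hb : b ∈ B) {p : α} (hp : p ∉ b) : cnt B {p} b = 6 := by
  have h := sum_add_cnt hα hB {p} ∅ hb
  rw [sum_congr rfl (g := fun _ => 5) fun x hx => by
    rw [cnt_le hα hB (by rw [card_pair (ne_of_mem_of_not_mem hx hp)]; norm_num),
      card_pair (ne_of_mem_of_not_mem hx hp)]; decide +kernel,
    cnt_le hα hB (by simp), if_neg fun h => hp (singleton_subset_iff.1 (mem_blk.1 h).2.1), empty_union,
    sum_const, hB.1 b hb, card_singleton, show lam 22 6 3 1 = 21 by decide +kernel] at h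
  simp only [smul_eq_mul] at h
  omega

omit hα hB in
theorem cnt_pt_mem {b : Finset α} {p : α} (hp : p ∈ b) : cnt B {p} b = 0 :=
  card_eq_zero.2 (eq_empty_of_forall_notMem fun _ hd =>
    disjoint_left.1 (mem_blk.1 hd).2.2 hp (singleton_subset_iff.1 (mem_blk.1 hd).2.1))

theorem cnt_disj₂ {b c : Finset α} (hb : b ∈ B) (hc : c ∈ B) (hbc : b ≠ c) :
    cnt B ∅ (b ∪ c) = if Disjoint b c then 0 else 4 := by
  have h := sum_add_cnt hα hB ∅ b hc
  have h1 : ∑ x ∈ c, cnt B (insert x ∅) b = 6 * (c \ b).card := by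
    rw [← filter_notMem_eq_sdiff, card_filter, mul_sum]
    refine sum_congr rfl fun x _ => ?_
    by_cases hx : x ∈ b
    · rw [if_neg (not_not.2 hx)]; exact cnt_pt_mem hx
    · rw [if_pos hx]; exact cnt_pt_disj hα hB hb hx
  have h2 := card_sdiff_add_card_inter c b
  rw [h1, cnt_disj hα hB hb] at h
  rw [hB.1 c hc, inter_comm] at h2
  by_cases hd : Disjoint b c
  · rw [if_pos (mem_blk.2 ⟨hc, empty_subset _, hd⟩)] at h
    rw [disjoint_iff_inter_eq_empty.1 hd, card_empty] at h2
    rw [if_pos hd]; omega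
  · rw [if_neg fun a => hd (mem_blk.1 a).2.2] at h
    have h3 := (inter_3_6_22 hα hB hb hc hbc).resolve_left fun e =>
      hd (disjoint_iff_inter_eq_empty.2 (card_eq_zero.1 e))
    rw [if_neg hd]; omega

omit hα hB in
theorem ncard_blocks {I J : Finset α} {P : B → Prop} (h : ∀ d : B, P d ↔ I ⊆ d ∧ Disjoint J d) :
    {d | P d}.ncard = cnt B I J := by
  rw [cnt_eq_ncard, ← Set.ncard_image_of_injective _ Subtype.val_injective]
  congr 1; ext d
  exact ⟨by rintro ⟨d, hd, rfl⟩; exact ⟨d.2, (h d).1 hd⟩, fun hd => ⟨⟨d, hd.1⟩, (h _).2 hd.2, rfl⟩⟩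

theorem card_blocks : Nat.card B = 77 := by
  have := ncard_mul_choose hB
  rw [hα, show Nat.choose 22 3 = 77 * Nat.choose 6 3 from rfl] at this
  exact Nat.eq_of_mul_eq_mul_right (by decide) this

omit [Fintype α] [DecidableEq α] hα in
theorem ne_of_disj {b c : B} (h : Disjoint (b : Finset α) c) : b ≠ c := by
  rintro rfl
  have := hB.1 _ b.2
  rw [disjoint_self.1 h] at this
  exact absurd this (by simp)

omit [Fintype α] [DecidableEq α] hα in
theorem block_adj {b c : B} : (blockGraph B).Adj b c ↔ Disjoint (b : Finset α) c := by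
  rw [blockGraph, SimpleGraph.fromRel_adj, disjoint_comm (a := (c : Finset α)), or_self]
  exact ⟨fun h => h.2, fun h => ⟨ne_of_disj hB h, h⟩⟩

theorem srg_block : Srg (blockGraph B) 77 16 0 4 where
  card := card_blocks hα hB
  reg b := (ncard_blocks fun d => by simp [block_adj hB]).trans (cnt_disj hα hB b.2)
  adj b c h := (ncard_blocks fun d => by simp [block_adj hB]).trans
    ((cnt_disj₂ hα hB b.2 c.2 fun e => h.ne (Subtype.ext e)).trans (if_pos ((block_adj hB).1 h)))
  nadj b c e h := (ncard_blocks fun d => by simp [block_adj hB]).trans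
    ((cnt_disj₂ hα hB b.2 c.2 fun e' => e (Subtype.ext e')).trans (if_neg (mt (block_adj hB).2 h)))

end counts

section adj

variable {α : Type*} {B : Set (Finset α)}

open Sum

theorem adj_nn : ¬ (pointBlockGraph B).Adj none none := (pointBlockGraph B).irrefl
theorem adj_np {p : α} : (pointBlockGraph B).Adj none (some (inl p)) := by
  simp [pointBlockGraph, pointBlockRel]
theorem adj_pn {p : α} : (pointBlockGraph B).Adj (some (inl p)) none := adj_np.symm
theorem adj_nb {b : B} : ¬ (pointBlockGraph B).Adj none (some (inr b)) := by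
  simp [pointBlockGraph, pointBlockRel]
theorem adj_bn {b : B} : ¬ (pointBlockGraph B).Adj (some (inr b)) none := fun h => adj_nb h.symm
theorem adj_pp {p q : α} : ¬ (pointBlockGraph B).Adj (some (inl p)) (some (inl q)) := by
  simp [pointBlockGraph, pointBlockRel]
theorem adj_pb {p : α} {b : B} :
    (pointBlockGraph B).Adj (some (inl p)) (some (inr b)) ↔ p ∈ (b : Finset α) := by
  simp [pointBlockGraph, pointBlockRel]
theorem adj_bp {p : α} {b : B} :
    (pointBlockGraph B).Adj (some (inr b)) (some (inl p)) ↔ p ∈ (b : Finset α) := by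
  rw [SimpleGraph.adj_comm, adj_pb]
theorem adj_bb {b c : B} :
    (pointBlockGraph B).Adj (some (inr b)) (some (inr c)) ↔ (blockGraph B).Adj b c := by
  simp [pointBlockGraph, pointBlockRel, blockGraph]

theorem ncard_split {β : Type*} [Finite α] [Finite β] (P : Option (α ⊕ β) → Prop) :
    ({v | P v}.ncard : ℤ) = ind (P none) + {a | P (some (inl a))}.ncard + {b | P (some (inr b))}.ncard := by
  have := Fintype.ofFinite α
  have := Fintype.ofFinite β
  rw [← sum_ind, ← sum_ind, ← sum_ind, Fintype.sum_option, Fintype.sum_sum_type, add_assoc]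

end adj

section pb

variable {α : Type*} [Fintype α] [DecidableEq α] {B : Set (Finset α)}
  (hα : Fintype.card α = 22) (hB : IsSteinerSystem 3 6 B)
include hα hB

open Sum

theorem srg_pb : Srg (pointBlockGraph B) 100 22 0 6 := by
  have hb := srg_block hα hB
  have c1 : ∀ p : α, {d : B | p ∈ (d : Finset α)}.ncard = 21 := fun p =>
    (ncard_blocks (I := {p}) (J := ∅) fun d => by simp).trans
      ((cnt_le hα hB (by simp)).trans (by rw [card_singleton]; decide +kernel))
  have c2 : ∀ b : B, {p | p ∈ (b : Finset α)}.ncard = 6 := fun b =>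
    (Set.ncard_coe_finset _).trans (hB.1 _ b.2)
  have c3 : ∀ (p : α) (b : B), {d : B | p ∈ (d : Finset α) ∧ (blockGraph B).Adj b d}.ncard =
      cnt B {p} b := fun p b => ncard_blocks fun d => by simp [block_adj hB]
  have c3' : ∀ (p : α) (b : B), {d : B | (blockGraph B).Adj b d ∧ p ∈ (d : Finset α)}.ncard =
      cnt B {p} b := fun p b => by simp only [and_comm (b := p ∈ _), c3]
  have c4 : ∀ b c : B, {p | p ∈ (b : Finset α) ∧ p ∈ (c : Finset α)}.ncard =
      ((b : Finset α) ∩ c).card := fun b c => by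
    rw [← Set.ncard_coe_finset, coe_inter]; rfl
  have cα : (Set.univ : Set α).ncard = 22 := by rw [Set.ncard_univ, Nat.card_eq_fintype_card, hα]
  refine ⟨?_, fun v => ?_, fun v w h => ?_, fun v w e h => ?_⟩
  · rw [Finite.card_option, Nat.card_sum, hb.card, Nat.card_eq_fintype_card, hα]
  · zify
    rw [ncard_split]
    rcases v with _ | p | b <;>
      simp [adj_np, adj_pn, adj_nb, adj_bn, adj_pp, adj_pb, adj_bp, adj_bb, ind, cα, c1, hb.reg,
        hB.1 _ (Subtype.prop _)]
  · zify
    rw [ncard_split]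
    rcases v with _ | p | b <;> rcases w with _ | q | c <;>
      simp only [adj_nn, adj_np, adj_pn, adj_nb, adj_bn, adj_pp, adj_pb, adj_bp, adj_bb, ind, and_false,
        false_and, if_false, Set.setOf_false, Set.ncard_empty, c3, c3', c4] at h ⊢
    · rfl
    · rfl
    · rw [cnt_pt_mem h]; rfl
    · rw [cnt_pt_mem h]; rfl
    · rw [hb.adj _ _ h, disjoint_iff_inter_eq_empty.1 ((block_adj hB).1 h)]; rfl
  · zify
    rw [ncard_split]
    rcases v with _ | p | b <;> rcases w with _ | q | c <;>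
      simp only [adj_nn, adj_np, adj_pn, adj_nb, adj_bn, adj_pp, adj_pb, adj_bp, adj_bb, ind, and_false,
        false_and, if_false, Set.setOf_false, Set.ncard_empty, c3, c3', c4, c2,
        true_and, and_true, if_true, not_true] at h ⊢
    · exact absurd rfl e
    · rfl
    · have e' : p ≠ q := fun h => e (by rw [h])
      rw [ncard_blocks (I := {p, q}) (J := ∅) fun d => by simp [insert_subset_iff],
        cnt_le hα hB (by rw [card_pair e']; norm_num), card_pair e']
      decide +kernel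
    · rw [cnt_pt_disj hα hB c.2 h]; rfl
    · rfl
    · rw [cnt_pt_disj hα hB b.2 h]; rfl
    · have e' : b ≠ c := fun h => e (by rw [h])
      rw [hb.nadj _ _ e' h, (inter_3_6_22 hα hB b.2 c.2 fun h => e' (Subtype.ext h)).resolve_left
        fun e => h ((block_adj hB).2 (disjoint_iff_inter_eq_empty.2 (card_eq_zero.1 e)))]
      rfl

end pb

section iso

open Sum

variable {α β : Type*} [DecidableEq α] [DecidableEq β] {B : Set (Finset α)} {B' : Set (Finset β)}

/-- the bijection of blocks induced by an isomorphism of set systems. -/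
noncomputable def blkEquiv (e : α ≃ β) (h : (fun b => b.image e) '' B = B') : B ≃ B' :=
  (Equiv.Set.image _ B (image_injective e.injective)).trans (Equiv.setCongr h)

theorem coe_blkEquiv (e : α ≃ β) (h : (fun b => b.image e) '' B = B') (b : B) :
    (blkEquiv e h b : Finset β) = (b : Finset α).image e := rfl

/-- the isomorphism of block graphs induced by an isomorphism of set systems. -/
noncomputable def blkIso (e : α ≃ β) (h : (fun b => b.image e) '' B = B') :
    blockGraph B ≃g blockGraph B' where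
  toEquiv := blkEquiv e h
  map_rel_iff' := by
    intro b c
    simp only [blockGraph, SimpleGraph.fromRel_adj, coe_blkEquiv, disjoint_image e.injective, ne_eq,
      EmbeddingLike.apply_eq_iff_eq]

/-- the isomorphism of point-block graphs induced by an isomorphism of set systems. -/
noncomputable def pbIso (e : α ≃ β) (h : (fun b => b.image e) '' B = B') :
    pointBlockGraph B ≃g pointBlockGraph B' where
  toEquiv := (e.sumCongr (blkEquiv e h)).optionCongr
  map_rel_iff' := by
    rintro (_ | p | b) (_ | q | c) <;>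
      simp [adj_np, adj_pn, adj_nb, adj_bn, adj_pp, adj_pb, adj_bp, adj_bb, coe_blkEquiv]
    exact (blkIso e h).map_rel_iff

theorem exists_sys_iso [Fintype α] [Fintype β] (hα : Fintype.card α = 22) (hβ : Fintype.card β = 22)
    (hB : IsSteinerSystem 3 6 B) (hB' : IsSteinerSystem 3 6 B') :
    ∃ e : α ≃ β, (fun b => b.image e) '' B = B' := by
  obtain ⟨E, rfl⟩ := Golay.uniq22 hα hB
  obtain ⟨E', rfl⟩ := Golay.uniq22 hβ hB'
  exact ⟨_, image_sysOf E E' _⟩

theorem steiner_of_range [Fintype α] (hα : Fintype.card α = 22) {ι : Type*} (hι : Nat.card ι = 77)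
    {f : ι → Finset α} (h6 : ∀ i, (f i).card = 6) (h2 : ∀ i j, i ≠ j → (f i ∩ f j).card ≤ 2) :
    Function.Injective f ∧ IsSteinerSystem 3 6 (Set.range f) := by
  have hf : Function.Injective f := fun i j e => by
    by_contra h
    have := h2 i j h
    rw [e, inter_self, h6] at this
    omega
  refine ⟨hf, isSteiner_of_count ?_ ?_ ?_⟩
  · rintro _ ⟨i, rfl⟩
    exact h6 i
  · rintro _ ⟨i, rfl⟩ _ ⟨j, rfl⟩ h
    by_contra e
    have := h2 i j fun e' => e (congrArg f e')
    omega
  · rw [← Set.image_univ, Set.ncard_image_of_injective _ hf, Set.ncard_univ, hι, hα]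
    decide

end iso

section uniq

open Sum

variable {V : Type*} [Fintype V] [DecidableEq V] {G : SimpleGraph V}

theorem exists_iso_pb (h : Srg G 100 22 0 6) (v : V) : ∃ B : Set (Finset {p // G.Adj v p}),
    IsSteinerSystem 3 6 B ∧ ∃ φ : pointBlockGraph B ≃g G, φ none = v := by
  classical
  have h' : Srg G 100 (3 * 6 + 4) 0 6 := h
  let f : {b // v ≠ b ∧ ¬ G.Adj v b} → Finset {p // G.Adj v p} := fun b => univ.filter fun p => G.Adj b p
  let g : Option ({p // G.Adj v p} ⊕ {b // v ≠ b ∧ ¬ G.Adj v b}) → V := fun o =>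
    o.elim v (Sum.elim Subtype.val Subtype.val)
  have hg : Function.Bijective g := by
    constructor
    · rintro (_ | p | b) (_ | q | c) e <;> simp only [g, Option.elim, elim_inl, elim_inr] at e
      · rfl
      · exact absurd e q.2.ne
      · exact absurd e c.2.1
      · exact absurd e.symm p.2.ne
      · rw [Subtype.ext e]
      · exact absurd (e ▸ p.2) c.2.2
      · exact absurd e.symm b.2.1
      · exact absurd (e ▸ q.2) b.2.2
      · rw [Subtype.ext e]
    · intro w
      by_cases e : v = w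
      · exact ⟨none, e⟩
      by_cases a : G.Adj v w
      · exact ⟨some (inl ⟨w, a⟩), rfl⟩
      · exact ⟨some (inr ⟨w, e, a⟩), rfl⟩
  have hα : Nat.card {p // G.Adj v p} = 22 := h.reg v
  have hι : Nat.card {b // v ≠ b ∧ ¬ G.Adj v b} = 77 := by
    have := Nat.card_eq_of_bijective g hg
    rw [Finite.card_option, Nat.card_sum, hα, h.card] at this
    omega
  have hc : ∀ (s : Finset {p // G.Adj v p}) (P : V → Prop), (∀ p, p ∈ s ↔ P p) →
      s.card = {p | G.Adj v p ∧ P p}.ncard := fun s P hs => by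
    rw [← Set.ncard_coe_finset, ← Set.ncard_image_of_injective _ Subtype.val_injective]
    congr 1; ext p
    exact ⟨by rintro ⟨p, hp, rfl⟩; exact ⟨p.2, (hs p).1 hp⟩, fun hp => ⟨⟨p, hp.1⟩, (hs _).2 hp.2, rfl⟩⟩
  have h0 : ∀ b c, G.Adj b.1 c.1 → Disjoint (f b) (f c) := fun b c a => disjoint_left.2 fun p h1 h2 =>
    h'.no_tri a (mem_filter.1 h1).2 (mem_filter.1 h2).2
  have h2 : ∀ b c, b ≠ c → ¬ G.Adj b.1 c.1 → (f b ∩ f c).card = 2 := fun b c e a =>
    (hc _ (fun p => G.Adj b.1 p ∧ G.Adj c.1 p) fun p => by simp [f]).trans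
      (h.common_three b.2.1 b.2.2 c.2.1 (fun e' => e (Subtype.ext e')) c.2.2 a)
  obtain ⟨f1, f2⟩ := steiner_of_range (f := f) (by simpa using hα) hι
    (fun b => (hc _ (G.Adj b.1) fun p => by simp [f]).trans (h.nadj _ _ b.2.1 b.2.2)) fun b c e => by
      by_cases a : G.Adj b.1 c.1
      · rw [disjoint_iff_inter_eq_empty.1 (h0 b c a)]; simp
      · exact (h2 b c e a).le
  refine ⟨_, f2, ⟨((Equiv.refl _).sumCongr (Equiv.ofInjective f f1).symm).optionCongr.trans
    (Equiv.ofBijective g hg), ?_⟩, rfl⟩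
  rintro (_ | p | ⟨_, b, rfl⟩) (_ | q | ⟨_, c, rfl⟩) <;>
    simp only [adj_nn, adj_np, adj_pn, adj_nb, adj_bn, adj_pp, adj_pb, adj_bp, adj_bb, block_adj f2,
      Equiv.trans_apply, Equiv.optionCongr_apply, Option.map_none, Option.map_some,
      Equiv.sumCongr_apply, Sum.map_inl, Sum.map_inr, Equiv.refl_apply, Equiv.ofBijective_apply,
      Equiv.ofInjective_symm_apply, g, Option.elim, elim_inl, elim_inr, iff_true, iff_false]
  · exact G.irrefl
  · exact q.2
  · exact c.2.2
  · exact p.2.symm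
  · exact h'.no_tri p.2 q.2
  · simp [f, G.adj_comm]
  · exact fun a => b.2.2 a.symm
  · simp [f]
  · refine ⟨h0 b c, fun d => ?_⟩
    by_contra a
    have := h2 b c (fun e => ne_of_disj f2 (b := ⟨_, b, rfl⟩) (c := ⟨_, c, rfl⟩) d (by rw [e])) a
    rw [disjoint_iff_inter_eq_empty.1 d] at this
    exact absurd this (by simp)

theorem srg100_iso {W : Type*} [Fintype W] [DecidableEq W] {G' : SimpleGraph W} (h : Srg G 100 22 0 6)
    (h' : Srg G' 100 22 0 6) (v : V) (w : W) : ∃ φ : G ≃g G', φ v = w := by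
  classical
  obtain ⟨B, hB, φ, hφ⟩ := exists_iso_pb h v
  obtain ⟨B', hB', φ', hφ'⟩ := exists_iso_pb h' w
  obtain ⟨e, he⟩ := exists_sys_iso (Nat.card_eq_fintype_card.symm.trans (h.reg _))
    (Nat.card_eq_fintype_card.symm.trans (h'.reg _)) hB hB'
  exact ⟨(φ.symm.trans (pbIso e he)).trans φ', (congrArg (fun x => φ' (pbIso e he x))
    (φ.symm_apply_eq.2 hφ.symm)).trans hφ'⟩

end uniq

section aut

open Sum

variable {α : Type*} [Fintype α] [DecidableEq α] {B : Set (Finset α)}

theorem card_stab_none : Nat.card (stabilizer (pointBlockGraph B ≃g pointBlockGraph B)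
    (none : Option (α ⊕ B))) = Nat.card (setSystemAut B) := by
  refine (Nat.card_eq_of_bijective (fun σ : setSystemAut B => (⟨pbIso σ.1 σ.2, rfl⟩ :
    stabilizer (pointBlockGraph B ≃g pointBlockGraph B) (none : Option (α ⊕ B)))) ⟨?_, ?_⟩).symm
  · intro σ τ e
    ext p
    have := congrArg (fun φ : stabilizer (pointBlockGraph B ≃g pointBlockGraph B)
      (none : Option (α ⊕ B)) => φ.1 (some (inl p))) e
    exact inl_injective (Option.some_injective _ this)
  · rintro ⟨φ, hφ : φ none = none⟩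
    have h1 : ∀ p, ∃ q, φ (some (inl p)) = some (inl q) := fun p => by
      have := φ.map_rel_iff.2 (adj_np (p := p))
      rw [hφ] at this
      rcases h : φ (some (inl p)) with _ | q | c <;> rw [h] at this
      · exact absurd this adj_nn
      · exact ⟨q, rfl⟩
      · exact absurd this adj_nb
    choose s hs using h1
    have h2 : Function.Bijective s := Finite.injective_iff_bijective.1 fun p q e =>
      inl_injective (Option.some_injective _ (φ.injective (by rw [hs, hs, e])))
    have h3 : ∀ b : B, ∃ c : B, φ (some (inr b)) = some (inr c) ∧ (c : Finset α) = b.1.image s := by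
      intro b
      rcases h : φ (some (inr b)) with _ | q | c
      · exact absurd (φ.injective (h.trans hφ.symm)) (by simp)
      · obtain ⟨p, rfl⟩ := h2.2 q
        exact absurd (φ.injective (h.trans (hs p).symm)) (by simp)
      · refine ⟨c, rfl, Finset.ext fun q => ?_⟩
        obtain ⟨p, rfl⟩ := h2.2 q
        rw [h2.1.mem_finset_image, ← adj_pb, ← adj_pb, ← hs, ← h, φ.map_rel_iff]
    refine ⟨⟨Equiv.ofBijective s h2, mem_setSystemAut_of (Set.toFinite _) fun b hb => ?_⟩,
      Subtype.ext (RelIso.ext ?_)⟩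
    · obtain ⟨c, -, hc⟩ := h3 ⟨b, hb⟩
      exact (show (c : Finset α) = Equiv.ofBijective s h2 • b from hc) ▸ c.2
    · rintro (_ | p | b)
      · exact hφ.symm
      · exact (hs p).symm
      · obtain ⟨c, h4, hc⟩ := h3 b
        exact (congrArg (fun c => some (inr c)) (Subtype.ext hc.symm)).trans h4.symm

theorem card_aut_pb (hα : Fintype.card α = 22) (hB : IsSteinerSystem 3 6 B) :
    Nat.card (pointBlockGraph B ≃g pointBlockGraph B) = 88704000 := by
  classical
  have h := srg_pb hα hB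
  have h1 : orbit (pointBlockGraph B ≃g pointBlockGraph B) (none : Option (α ⊕ B)) = Set.univ :=
    Set.eq_univ_of_forall fun w => srg100_iso h h none w
  rw [card_eq_orbit_mul_stabilizer (none : Option (α ⊕ B)), h1, Set.ncard_univ, h.card, card_stab_none]
  obtain ⟨E, rfl⟩ := Golay.uniq22 hα hB
  rw [(Golay.card_closure22 E).1]

end aut

section rank3

theorem srg_dvd {V : Type*} [Fintype V] {G : SimpleGraph V} {n k l m : ℕ} (h : Srg G n k l m) (p : ℕ)
    [Fact p.Prime] (s t : ℤ) (h1 : (p : ℤ) ∣ k - m + s ^ 2) (h2 : (p : ℤ) ∣ l - m + 2 * s)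
    (h3 : (p : ℤ) ∣ m + 2 * t * (k + s) + n * t ^ 2) : (p : ℤ) ∣ n * (s + t) := by
  classical
  let M : Matrix V V ℤ := Matrix.of fun i j => ind (G.Adj i j) + s * ind (i = j) + t
  have hM : ∀ i j, (p : ℤ) ∣ (M * M) i j := fun i j => by
    have a1 : ∑ x, ind (G.Adj i x) * M x j = ({x | G.Adj i x ∧ G.Adj j x}.ncard : ℤ) +
        s * ind (G.Adj i j) + t * k := by
      simp only [M, Matrix.of_apply, mul_add, sum_add_distrib, ind_mul, G.adj_comm _ j, sum_ind,
        mul_left_comm _ s, ← mul_sum, ← sum_mul, h.reg, mul_comm t, eq_comm (b := j)]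
      simp only [← sum_ind, ← ind_mul, mul_comm (ind (G.Adj i _)) (ind (j = _)), sum_ind_eq_mul,
        G.adj_comm j i]
    have a2 : ∑ x, M x j = k + s + n * t := by
      have := sum_ind_eq_mul j fun _ => 1
      simp only [mul_one] at this
      simp only [M, Matrix.of_apply, sum_add_distrib, G.adj_comm _ j, sum_ind (G.Adj j), h.reg,
        ← mul_sum, eq_comm (b := j), this, sum_const, card_univ, ← Nat.card_eq_fintype_card, h.card,
        mul_one, nsmul_eq_mul]
    have a3 : (M * M) i j = ∑ x, ind (G.Adj i x) * M x j + s * ∑ x, ind (i = x) * M x j +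
        t * ∑ x, M x j := by
      simp only [Matrix.mul_apply, mul_sum, ← sum_add_distrib]
      exact sum_congr rfl fun x _ => by simp only [M, Matrix.of_apply]; ring
    rw [a3, a1, a2, sum_ind_eq_mul, h.common]
    have := (dvd_add (h1.mul_right (ind (i = j))) (h2.mul_right (ind (G.Adj i j)))).add h3
    refine this.trans (dvd_of_eq ?_)
    rw [show M i j = ind (G.Adj i j) + s * ind (i = j) + t from rfl]; ring
  have h4 : IsNilpotent (M.map (Int.castRingHom (ZMod p))) := ⟨2, by
    rw [sq, ← Matrix.map_mul]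
    ext i j
    exact (ZMod.intCast_zmod_eq_zero_iff_dvd _ _).2 (hM i j)⟩
  have h5 := (Matrix.isNilpotent_trace_of_isNilpotent h4).eq_zero
  rw [← ZMod.intCast_zmod_eq_zero_iff_dvd, ← h5]
  simp [Matrix.trace, M, ind, ← Nat.card_eq_fintype_card, h.card, mul_add]

theorem srg_100_22 {V : Type*} [Fintype V] {G : SimpleGraph V} {l m : ℕ} (h : Srg G 100 22 l m) :
    l = 0 ∧ m = 6 := by
  classical
  have h0 := (srg_iff.2 h).param_eq G (by norm_num)
  obtain ⟨a⟩ : Nonempty V := (Nat.card_pos_iff.1 (by rw [h.card]; norm_num)).1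
  obtain ⟨x, hx⟩ := Set.nonempty_of_ncard_ne_zero (s := {w | G.Adj a w}) (by rw [h.reg]; norm_num)
  have h1 : l < 22 := by
    rw [← h.adj a x hx, ← h.reg a]
    exact Set.ncard_lt_ncard ⟨fun _ h => h.1, fun h => G.irrefl (h hx).2⟩
  have h2 : l = 21 ∧ m = 0 ∨ l = 14 ∧ m = 2 ∨ l = 7 ∧ m = 4 ∨ l = 0 ∧ m = 6 := by omega
  rcases h2 with ⟨rfl, rfl⟩ | ⟨rfl, rfl⟩ | ⟨rfl, rfl⟩ | h2
  · have : Fact (Nat.Prime 23) := ⟨by norm_num⟩
    exact absurd (srg_dvd h 23 1 0 (by norm_num) (by norm_num) (by norm_num)) (by norm_num)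
  · obtain ⟨y, y1, y2⟩ : ∃ y, G.Adj a y ∧ y ∉ insert x {w | G.Adj a w ∧ G.Adj x w} := by
      by_contra! hc
      have := (Set.ncard_le_ncard (s := {w | G.Adj a w}) hc).trans (Set.ncard_insert_le _ _)
      rw [h.reg, h.adj a x hx] at this
      omega
    have y3 : x ≠ y := fun e => y2 (Or.inl e.symm)
    have y4 : ¬ G.Adj x y := fun e => y2 (Or.inr ⟨y1, e⟩)
    have a1 := Set.ncard_union_add_ncard_inter {w | G.Adj a w ∧ G.Adj x w} {w | G.Adj a w ∧ G.Adj y w}
    have a2 := Set.ncard_le_ncard (s := {w | G.Adj a w ∧ G.Adj x w} ∪ {w | G.Adj a w ∧ G.Adj y w})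
      (t := {w | G.Adj a w}) fun _ h => h.elim And.left And.left
    have a3 := Set.ncard_le_ncard (s := {w | G.Adj a w ∧ G.Adj x w} ∩ {w | G.Adj a w ∧ G.Adj y w})
      (t := {w | G.Adj x w ∧ G.Adj y w}) fun _ h => ⟨h.1.2, h.2.2⟩
    rw [h.adj a x hx, h.adj a y y1] at a1
    rw [h.reg] at a2
    rw [h.nadj x y y3 y4] at a3
    omega
  · have : Fact (Nat.Prime 3) := ⟨by norm_num⟩
    exact absurd (srg_dvd h 3 0 (-1) (by norm_num) (by norm_num) (by norm_num)) (by norm_num)
  · exact h2

/-- the orbital graph of a rank 3 group with distinct subdegrees. -/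
theorem rank3_srg {G Ω : Type*} [Group G] [MulAction G Ω] [Finite G] [Finite Ω] [IsPretransitive G Ω]
    {a b c : Ω} {k j : ℕ} (hΩ : Nat.card Ω = 1 + k + j) (hk : k ≠ 1) (hj : j ≠ 1) (hkj : k ≠ j)
    (hb : (orbit (stabilizer G a) b).ncard = k) (hc : (orbit (stabilizer G a) c).ncard = j) :
    ∃ (Γ : SimpleGraph Ω) (l m : ℕ), Srg Γ (1 + k + j) k l m ∧
      ∀ (g : G) x y, Γ.Adj (g • x) (g • y) ↔ Γ.Adj x y := by
  have h1 : orbit (stabilizer G a) a = {a} :=
    Set.eq_singleton_iff_unique_mem.2 ⟨mem_orbit_self a, by rintro _ ⟨g, rfl⟩; exact g.2⟩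
  have hd : ∀ {x y : Ω}, (orbit (stabilizer G a) x).ncard ≠ (orbit (stabilizer G a) y).ncard →
      Disjoint (orbit (stabilizer G a) x) (orbit (stabilizer G a) y) := fun h =>
    (orbit.eq_or_disjoint _ _).resolve_left fun e => h (by rw [e])
  have d1 := @hd a b (by rw [h1, hb, Set.ncard_singleton]; exact hk.symm)
  have d2 := @hd a c (by rw [h1, hc, Set.ncard_singleton]; exact hj.symm)
  have d3 := @hd b c (by rwa [hb, hc])
  have cov : ∀ x, x ∈ orbit (stabilizer G a) a ∪ orbit (stabilizer G a) b ∪ orbit (stabilizer G a) c :=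
    Set.eq_univ_iff_forall.1 (Set.eq_of_subset_of_ncard_le (Set.subset_univ _) (by
      rw [Set.ncard_union_eq (Set.disjoint_union_left.2 ⟨d2, d3⟩), Set.ncard_union_eq d1, h1, hb, hc,
        Set.ncard_univ, hΩ, Set.ncard_singleton]))
  have hab : a ≠ b := fun e => Set.disjoint_left.1 d1 (mem_orbit_self a) (e ▸ mem_orbit_self a)
  obtain ⟨t, t1, t2⟩ : ∃ t : G, t • a = b ∧ t • b = a := by
    obtain ⟨u, rfl⟩ := exists_smul_eq G a b
    have e1 := card_eq_ncard_orbit_mul (stabilizer G a) (u • a)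
    have e2 := card_eq_ncard_orbit_mul (stabilizer G a) (u⁻¹ • a)
    have e3 : Nat.card ↥(stabilizer G a ⊓ stabilizer G (u⁻¹ • a)) =
        Nat.card ↥(stabilizer G a ⊓ stabilizer G (u • a)) := Nat.card_congr (conjEquiv u (by
      rw [map_conj_inf, map_conj_stabilizer, map_conj_stabilizer, smul_inv_smul, inf_comm])).toEquiv
    rw [e1, e3, hb] at e2
    have e4 := Nat.eq_of_mul_eq_mul_right Nat.card_pos e2
    rcases cov (u⁻¹ • a) with (h | h) | h
    · rw [orbit_eq_iff.2 h, h1, Set.ncard_singleton] at e4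
      exact absurd e4 hk
    · obtain ⟨s, hs⟩ := h
      refine ⟨u * s, by rw [mul_smul, show (s : G) • a = a from s.2], ?_⟩
      rw [mul_smul, show (s : G) • u • a = u⁻¹ • a from hs, smul_inv_smul]
    · rw [orbit_eq_iff.2 h, hc] at e4
      exact absurd e4 hkj
  let Γ : SimpleGraph Ω := ⟨fun x y => ∃ g : G, g • a = x ∧ g • b = y, ⟨by
    rintro _ _ ⟨g, rfl, rfl⟩
    exact ⟨g * t, by rw [mul_smul, t1], by rw [mul_smul, t2]⟩⟩, ⟨by
    rintro _ ⟨g, rfl, h⟩
    exact hab (smul_left_cancel g h).symm⟩⟩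
  have hi : ∀ (g : G) x y, Γ.Adj x y → Γ.Adj (g • x) (g • y) := by
    rintro g _ _ ⟨k, rfl, rfl⟩
    exact ⟨g * k, mul_smul _ _ _, mul_smul _ _ _⟩
  have hi' : ∀ (g : G) x y, Γ.Adj (g • x) (g • y) ↔ Γ.Adj x y := fun g x y =>
    ⟨fun h => by simpa using hi g⁻¹ _ _ h, hi g x y⟩
  have hn : ∀ (g : G) (P Q : Ω → Prop), (∀ x, P (g • x) ↔ Q x) → {x | P x}.ncard = {x | Q x}.ncard :=
    fun g P Q h => by
      rw [← Set.ncard_preimage_of_injective_subset_range (f := fun x : Ω => g • x) (s := {x | P x})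
        (MulAction.injective g) (by rw [(MulAction.surjective g).range_eq]; exact Set.subset_univ _)]
      exact congrArg _ (Set.ext h)
  have ha : {w | Γ.Adj a w} = orbit (stabilizer G a) b :=
    Set.ext fun w => ⟨fun ⟨g, h1, h2⟩ => ⟨⟨g, h1⟩, h2⟩, fun ⟨g, h⟩ => ⟨g, g.2, h⟩⟩
  refine ⟨Γ, {x | Γ.Adj a x ∧ Γ.Adj b x}.ncard, {x | Γ.Adj a x ∧ Γ.Adj c x}.ncard,
    ⟨hΩ, fun v => ?_, ?_, fun v w e h => ?_⟩, hi'⟩
  · obtain ⟨g, rfl⟩ := exists_smul_eq G a v
    rw [hn g _ _ (hi' g a), ha, hb]
  · rintro _ _ ⟨g, rfl, rfl⟩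
    exact hn g _ _ fun x => by rw [hi', hi']
  · obtain ⟨g, rfl⟩ := exists_smul_eq G a v
    obtain ⟨w, rfl⟩ := MulAction.surjective g w
    rcases cov w with (h' | h') | ⟨s, rfl⟩
    · rw [h1] at h'
      exact absurd (congrArg _ h'.symm) e
    · exact absurd (hi g _ _ (ha.ge h')) h
    · refine hn (g * s) _ _ fun x => ?_
      have e1 : g • a = (g * s) • a := by rw [mul_smul, show (s : G) • a = a from s.2]
      have e2 : g • s • c = (g * s) • c := (mul_smul _ _ _).symm
      simp only [e1, e2, hi']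

/-- a group preserving a graph maps to its automorphism group. -/
def toAut {G Ω : Type*} [Group G] [MulAction G Ω] {Γ : SimpleGraph Ω}
    (h : ∀ (g : G) x y, Γ.Adj (g • x) (g • y) ↔ Γ.Adj x y) : G →* (Γ ≃g Γ) where
  toFun g := ⟨toPerm g, fun {x y} => h g x y⟩
  map_one' := RelIso.ext fun x => one_smul G x
  map_mul' g k := RelIso.ext fun x => mul_smul g k x

/-- conjugation of automorphism groups along an isomorphism of graphs. -/
def autCongr {V W : Type*} {Γ : SimpleGraph V} {Δ : SimpleGraph W} (e : Γ ≃g Δ) :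
    (Γ ≃g Γ) ≃* (Δ ≃g Δ) where
  toFun φ := (e.symm.trans φ).trans e
  invFun φ := (e.trans φ).trans e.symm
  left_inv φ := RelIso.ext fun x => by simp
  right_inv φ := RelIso.ext fun x => by simp
  map_mul' φ ψ := RelIso.ext fun x => by simp

theorem exists_hom_of_rank3 {G Ω : Type*} [Group G] [MulAction G Ω] [Finite G] [Finite Ω]
    [IsPretransitive G Ω] [FaithfulSMul G Ω] {a b c : Ω} (hΩ : Nat.card Ω = 100)
    (hb : (orbit (stabilizer G a) b).ncard = 22) (hc : (orbit (stabilizer G a) c).ncard = 77)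
    {V : Type*} [Finite V] {Δ : SimpleGraph V} (hΔ : Srg Δ 100 22 0 6) :
    ∃ f : G →* (Δ ≃g Δ), Function.Injective f := by
  classical
  have := Fintype.ofFinite Ω
  have := Fintype.ofFinite V
  obtain ⟨Γ, l, m, h1, h2⟩ := rank3_srg (k := 22) (j := 77) hΩ (by norm_num) (by norm_num) (by norm_num)
    hb hc
  obtain ⟨rfl, rfl⟩ := srg_100_22 h1
  obtain ⟨v⟩ : Nonempty V := (Nat.card_pos_iff.1 (by rw [hΔ.card]; norm_num)).1
  obtain ⟨e, -⟩ := srg100_iso h1 hΔ a v
  exact ⟨(autCongr e).toMonoidHom.comp (toAut h2), (autCongr e).injective.comp fun g k e =>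
    eq_of_smul_eq_smul fun x : Ω => DFunLike.congr_fun e x⟩

end rank3

end Cfsg.Agent.Perm.HS
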