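import Cfsg.Agent.Perm.Mono
import Cfsg.Agent.Perm.AutAlt

/-! The hexacode: words `ph ω ∘ V t` (`mem_iff`), counting (`ncard_V`), diagonal and monomial
automorphisms (`diag_const`, `monoPerm_eq`). -/

set_option autoImplicit false

namespace Cfsg.Agent.Perm.Hexa

open Finset

/-- addition table of the field with four elements. -/
def ad (a b : Fin 4) : Fin 4 := Fin.ofNat 4 (a.val ^^^ b.val)
/-- multiplication table of the field with four elements. -/
def mu (a b : Fin 4) : Fin 4 := Fin.ofNat 4 (2625168384 >>> (8 * a.val + 2 * b.val))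
/-- generators of the hexacode. -/
def gn (j : Fin 3) (k : Fin 6) : Fin 4 := Fin.ofNat 4 (63279381438 >>> (12 * j.val + 2 * k.val))
/-- words of the hexacode. -/
def V (t : Fin 4 × Fin 4 × Fin 4) (k : Fin 6) : Fin 4 :=
  ad (ad (mu t.1 (gn 0 k)) (mu t.2.1 (gn 1 k))) (mu t.2.2 (gn 2 k))
/-- parity checks of the hexacode. -/
def chk (x : Fin 6 → Fin 4) (j : Fin 3) : Fin 4 :=
  let f := fun k => mu (x k) (mu (gn j k) (gn j k))
  ad (ad (ad (f 0) (f 1)) (ad (f 2) (f 3))) (ad (f 4) (f 5))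

variable {F : Type*} [Field F]

/-- the elements of the field with four elements. -/
def ph (ω : F) : Fin 4 → F := ![0, 1, ω, ω ^ 2]

variable [Fintype F] (hF : Fintype.card F = 4) {ω : F} (hω : ω ^ 2 + ω + 1 = 0)
include hF hω

omit hω in
theorem two_eq : (2 : F) = 0 := by
  have h := FiniteField.cast_card_eq_zero F
  rw [hF] at h
  exact mul_self_eq_zero.1 (by rw [← h]; norm_num)

theorem ph_ad (a b : Fin 4) : ph ω (ad a b) = ph ω a + ph ω b := by
  have h2 := two_eq hF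
  fin_cases a <;> fin_cases b <;> simp [ph, ad, Fin.ofNat] <;> grind

omit hF in
theorem ph_mu (a b : Fin 4) : ph ω (mu a b) = ph ω a * ph ω b := by
  fin_cases a <;> fin_cases b <;> simp [ph, mu, Fin.ofNat, Nat.shiftRight_eq_div_pow] <;> grind

theorem ph_bij : Function.Bijective (ph ω) := by
  have h2 := two_eq hF
  have h1 : (1 : F) ≠ 0 := one_ne_zero
  refine (Fintype.bijective_iff_injective_and_card _).2 ⟨fun a b => ?_, by simp [hF]⟩
  fin_cases a <;> fin_cases b <;> simp [ph] <;> grind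

omit [Fintype F] hF hω in
theorem hexacode_eq : hexacode F ω = Submodule.span F {ph ω ∘ gn 0, ph ω ∘ gn 1, ph ω ∘ gn 2} := by
  rw [hexacode]
  congr 2
  · funext k; fin_cases k <;> rfl
  congr 1
  · funext k; fin_cases k <;> rfl
  congr 1
  · funext k; fin_cases k <;> rfl

theorem mem_iff {x : Fin 6 → F} : x ∈ hexacode F ω ↔ ∃ t, x = ph ω ∘ V t := by
  have h : ∀ t, ph ω ∘ V t = ph ω t.1 • (ph ω ∘ gn 0) + ph ω t.2.1 • (ph ω ∘ gn 1) +
      ph ω t.2.2 • (ph ω ∘ gn 2) := fun t => funext fun k => by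
    simp [V, ph_ad hF hω, ph_mu hω]
  rw [hexacode_eq, Submodule.mem_span_triple]
  refine ⟨fun ⟨a, b, c, e⟩ => ?_, fun ⟨t, e⟩ => ⟨_, _, _, (e.trans (h t)).symm⟩⟩
  obtain ⟨a, rfl⟩ := (ph_bij hF hω).2 a
  obtain ⟨b, rfl⟩ := (ph_bij hF hω).2 b
  obtain ⟨c, rfl⟩ := (ph_bij hF hω).2 c
  exact ⟨(a, b, c), e.symm.trans (h (a, b, c)).symm⟩

theorem ncard_V {P : (Fin 6 → F) → Prop} {Q : Fin 4 × Fin 4 × Fin 4 → Prop} [DecidablePred Q]
    (h : ∀ t, P (ph ω ∘ V t) ↔ Q t) : {x | x ∈ hexacode F ω ∧ P x}.ncard = (univ.filter Q).card := by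
  have h1 : ∀ t s, V t 0 = V s 0 ∧ V t 1 = V s 1 ∧ V t 2 = V s 2 → t = s := by decide +kernel
  rw [← Set.ncard_coe_finset, ← Set.ncard_image_of_injective _ (f := fun t => ph ω ∘ V t) fun t s e =>
    h1 t s ⟨(ph_bij hF hω).1 (congrFun e 0), (ph_bij hF hω).1 (congrFun e 1),
      (ph_bij hF hω).1 (congrFun e 2)⟩]
  congr 1; ext x
  simp only [Set.mem_setOf_eq, mem_iff hF hω, coe_filter, mem_univ, true_and, Set.mem_image, ← h]
  exact ⟨by rintro ⟨⟨t, rfl⟩, h⟩; exact ⟨t, h, rfl⟩, by rintro ⟨t, h, rfl⟩; exact ⟨⟨t, rfl⟩, h⟩⟩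

theorem ph_eq_zero {a : Fin 4} : ph ω a = 0 ↔ a = 0 := (ph_bij hF hω).1.eq_iff (b := 0)

theorem exists_chk {σ : Equiv.Perm (Fin 6)} {c : Fin 6 → Fˣ}
    (h : ∀ x ∈ hexacode F ω, monomialMap σ c x ∈ hexacode F ω) : ∃ d : Fin 6 → Fin 4,
    (∀ i, ph ω (d i) = c i) ∧ (∀ i, d i ≠ 0) ∧ ∀ j j', chk (fun i => mu (d i) (gn j (σ.symm i))) j' = 0 := by
  choose d hd using fun i => (ph_bij hF hω).2 (c i)
  refine ⟨d, hd, fun i e => (c i).ne_zero (by rw [← hd, e]; rfl), fun j j' => ?_⟩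
  obtain ⟨t, ht⟩ := (mem_iff hF hω).1 (h (ph ω ∘ gn j) (by
    rw [hexacode_eq]
    exact Submodule.subset_span (by fin_cases j <;> simp)))
  have h1 : (fun i => mu (d i) (gn j (σ.symm i))) = V t := funext fun i => (ph_bij hF hω).1 (by
    rw [ph_mu hω, hd]; exact congrFun ht i)
  rw [h1]
  revert t j'
  exact fun j' t _ _ => (by decide +kernel : ∀ t j', chk (V t) j' = 0) t j'

set_option synthInstance.maxSize 1000 in
theorem diag_const (c : Fin 6 → Fˣ) (h : ∀ x ∈ hexacode F ω, monomialMap 1 c x ∈ hexacode F ω)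
    (i j : Fin 6) : c i = c j := by
  obtain ⟨d, h1, -, h2⟩ := exists_chk hF hω h
  have h3 : ∀ a b c d e f : Fin 4, (∀ j j', chk (fun i => mu (![a, b, c, d, e, f] i) (gn j i)) j' = 0) →
      ∀ i, ![a, b, c, d, e, f] i = a := by decide +kernel
  have h4 : d = ![d 0, d 1, d 2, d 3, d 4, d 5] := by funext i; fin_cases i <;> rfl
  have h5 := h3 (d 0) (d 1) (d 2) (d 3) (d 4) (d 5) (h4 ▸ h2)
  rw [← h4] at h5
  exact Units.ext (by rw [← h1, ← h1, h5 i, h5 j])

theorem mem_monoPerm {σ : Equiv.Perm (Fin 6)} (d : Fin 6 → Fin 4) (h0 : ∀ i, d i ≠ 0)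
    (h : ∀ j, ∃ t, ∀ i, mu (d i) (gn j (σ.symm i)) = V t i) : σ ∈ monoPerm (hexacode F ω) := by
  refine ⟨fun i => Units.mk0 (ph ω (d i)) (mt (ph_eq_zero hF hω).1 (h0 i)),
    mono_of_span hexacode_eq.le ?_⟩
  have h1 : ∀ j, monomialMap σ (fun i => Units.mk0 (ph ω (d i)) (mt (ph_eq_zero hF hω).1 (h0 i)))
      (ph ω ∘ gn j) ∈ hexacode F ω := fun j => by
    obtain ⟨t, ht⟩ := h j
    exact (mem_iff hF hω).2 ⟨t, funext fun i => (ph_mu hω _ _).symm.trans (congrArg _ (ht i))⟩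
  rintro _ (rfl | rfl | rfl) <;> exact h1 _

set_option synthInstance.maxSize 1000 in
theorem monoPerm_eq : monoPerm (hexacode F ω) = alternatingGroup (Fin 6) := by
  have h1 : alternatingGroup (Fin 6) ≤ monoPerm (hexacode F ω) :=
    AutAlt.closure_tc (a := 0) (b := 1) (by decide) fun x h0 h1 => by
      fin_cases x
      · exact absurd rfl h0
      · exact absurd rfl h1
      · exact mem_monoPerm hF hω ![1, 1, 1, 1, 3, 2] (by decide) (by decide +kernel)
      · exact mem_monoPerm hF hω ![1, 1, 1, 1, 2, 3] (by decide) (by decide +kernel)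
      · exact mem_monoPerm hF hω ![1, 1, 3, 2, 1, 1] (by decide) (by decide +kernel)
      · exact mem_monoPerm hF hω ![1, 1, 2, 3, 1, 1] (by decide) (by decide +kernel)
  have h6 := Subgroup.index_dvd_of_le h1
  rw [alternatingGroup.index_eq_two, Nat.dvd_prime Nat.prime_two, Subgroup.index_eq_one] at h6
  refine Equiv.Perm.eq_alternatingGroup_of_index_eq_two (h6.resolve_left fun e => ?_)
  obtain ⟨c, hc⟩ : Equiv.swap 0 1 ∈ monoPerm (hexacode F ω) := e ▸ Subgroup.mem_top _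
  obtain ⟨d, -, h0, h2⟩ := exists_chk hF hω hc
  have h3 : ∀ a b c d e f : Fin 4, (∀ j j', chk (fun i => mu (![a, b, c, d, e, f] i)
      (gn j (![1, 0, 2, 3, 4, 5] i))) j' = 0) → a = 0 := by decide +kernel
  have h4 : d = ![d 0, d 1, d 2, d 3, d 4, d 5] := by funext i; fin_cases i <;> rfl
  have h5 : ∀ i : Fin 6, (Equiv.swap 0 1).symm i = ![1, 0, 2, 3, 4, 5] i := by decide
  simp only [h5] at h2
  exact h0 0 (h3 (d 0) (d 1) (d 2) (d 3) (d 4) (d 5) (h4 ▸ h2))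

end Cfsg.Agent.Perm.Hexa
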