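import Cfsg.Prelude.Def_SporadicCombinatorics

/-! Monomial automorphisms of a linear code: `monoPerm C` (the permutation parts), `mono_of_span`,
`card_mono` (the order of the monomial group when the diagonal part consists of scalars). -/

set_option autoImplicit false

namespace Cfsg.Agent.Perm

variable {α F : Type*} [Field F]

/-- `monomialMap` as a linear map. -/
def monoLin (σ : Equiv.Perm α) (c : α → Fˣ) : (α → F) →ₗ[F] (α → F) where
  toFun := monomialMap σ c
  map_add' _ _ := funext fun _ => mul_add _ _ _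
  map_smul' _ _ := funext fun _ => mul_left_comm _ _ _

theorem mono_of_span {S : Set (α → F)} {C : Submodule F (α → F)} (hC : C ≤ Submodule.span F S)
    {σ : Equiv.Perm α} {c : α → Fˣ} (h : ∀ x ∈ S, monomialMap σ c x ∈ C) :
    ∀ x ∈ C, monomialMap σ c x ∈ C :=
  fun _ hx => (Submodule.span_le (p := C.comap (monoLin σ c))).2 h (hC hx)

theorem mono_injective (σ : Equiv.Perm α) (c : α → Fˣ) : Function.Injective (monomialMap σ c) :=
  fun x y e => funext fun i => by
    simpa [monomialMap] using congrFun e (σ i)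

variable [Finite α] [Finite F] (C : Submodule F (α → F))

theorem mono_surj {σ : Equiv.Perm α} {c : α → Fˣ} (h : ∀ x ∈ C, monomialMap σ c x ∈ C) {y : α → F}
    (hy : y ∈ C) : ∃ x ∈ C, monomialMap σ c x = y := by
  obtain ⟨x, hx⟩ := (Finite.injective_iff_surjective (f := fun x : C => (⟨_, h x x.2⟩ : C))).1
    (fun x y e => Subtype.ext (mono_injective σ c (congrArg Subtype.val e))) ⟨y, hy⟩
  exact ⟨x, x.2, congrArg Subtype.val hx⟩

/-- the permutation parts of the monomial automorphisms of `C`. -/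
def monoPerm : Subgroup (Equiv.Perm α) where
  carrier := {σ | ∃ c : α → Fˣ, ∀ x ∈ C, monomialMap σ c x ∈ C}
  one_mem' := ⟨1, fun x hx => by convert hx using 1; funext i; simp [monomialMap, Equiv.Perm.one_def]⟩
  mul_mem' := by
    rintro σ τ ⟨c, hc⟩ ⟨d, hd⟩
    refine ⟨fun i => c i * d (σ.symm i), fun x hx => ?_⟩
    convert hc _ (hd x hx) using 1
    funext i
    simp only [monomialMap, Units.val_mul, mul_assoc]
    rfl
  inv_mem' := by
    rintro σ ⟨c, hc⟩
    refine ⟨fun i => (c (σ i))⁻¹, fun y hy => ?_⟩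
    obtain ⟨x, hx, rfl⟩ := mono_surj C hc hy
    convert hx using 1
    funext i
    simp [monomialMap, Equiv.Perm.inv_def]

theorem card_mono [Nonempty α]
    (hd : ∀ c : α → Fˣ, (∀ x ∈ C, monomialMap 1 c x ∈ C) → ∀ i j, c i = c j) :
    Nat.card {f : Equiv.Perm α × (α → Fˣ) // ∀ x ∈ C, monomialMap f.1 f.2 x ∈ C} =
      Nat.card (monoPerm C) * Nat.card Fˣ := by
  obtain ⟨a⟩ := ‹Nonempty α›
  have h0 : ∀ σ : monoPerm C, ∃ c : α → Fˣ, ∀ x ∈ C, monomialMap σ.1 c x ∈ C := fun σ => σ.2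
  choose c hc using h0
  rw [← Nat.card_prod]
  refine (Nat.card_eq_of_bijective (fun p : monoPerm C × Fˣ => (⟨(p.1.1, fun i => p.2 * c p.1 i),
    fun x hx => ?_⟩ : {f : Equiv.Perm α × (α → Fˣ) // ∀ x ∈ C, monomialMap f.1 f.2 x ∈ C})) ⟨?_, ?_⟩).symm
  · convert C.smul_mem (p.2 : F) (hc p.1 x hx) using 1
    funext i
    simp [monomialMap, mul_assoc]
  · rintro ⟨σ, u⟩ ⟨τ, v⟩ e
    obtain ⟨e1, e2⟩ := Prod.ext_iff.1 (congrArg Subtype.val e)
    obtain rfl : σ = τ := Subtype.ext e1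
    exact Prod.ext rfl (mul_right_cancel (congrFun e2 a))
  · rintro ⟨⟨σ, d⟩, h⟩
    have h1 := hd (fun i => d i * (c ⟨σ, d, h⟩ i)⁻¹) fun y hy => by
      obtain ⟨x, hx, rfl⟩ := mono_surj C (hc ⟨σ, d, h⟩) hy
      convert h x hx using 1
      funext i
      simp [monomialMap, Equiv.Perm.one_def, mul_assoc]
    refine ⟨(⟨σ, d, h⟩, d a * (c ⟨σ, d, h⟩ a)⁻¹), Subtype.ext (Prod.ext rfl (funext fun i => ?_))⟩
    simp only [h1 a i, inv_mul_cancel_right]

end Cfsg.Agent.Perm
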