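import Cfsg.Agent.Perm.Zass
import Cfsg.Agent.Perm.Sharp2
import Cfsg.Agent.BG.S5
import Cfsg.Agent.BG.S3Wielandt

/-! Doubly transitive groups in which only the identity fixes three points, with non-trivial
two-point stabilisers and a regular normal subgroup: the degree is `2 ^ q` and the two-point
stabilisers have order `q`, `q` prime (`regular_normal_card`). -/

set_option autoImplicit false

namespace Cfsg.Agent.Perm

open Subgroup Cfsg.Agent.BG MulAction
open scoped commutatorElement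

theorem regular_normal_card {G Ω : Type*} [Group G] [MulAction G Ω] [Finite G] [Finite Ω]
    [FaithfulSMul G Ω] (h2 : IsMultiplyPretransitive G Ω 2)
    (h3 : ∀ g : G, ∀ a b c : Ω, a ≠ b → b ≠ c → a ≠ c → g • a = a → g • b = b → g • c = c → g = 1)
    {a b : Ω} (hab : a ≠ b) (hD : stabilizer G a ⊓ stabilizer G b ≠ ⊥) (N : Subgroup G)
    [hN : N.Normal] (ht : IsPretransitive N Ω) (hr : ∀ u ∈ N, u • a = a → u = 1) :
    ∃ q : ℕ, q.Prime ∧ Nat.card Ω = 2 ^ q ∧ #(stabilizer G a ⊓ stabilizer G b) = q ∧ Abelem 2 N := by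
  set D := stabilizer G a ⊓ stabilizer G b
  obtain ⟨⟨u, hu⟩, hub⟩ := ht.exists_smul_eq a b
  change u • a = b at hub
  have u1 : u ≠ 1 := by rintro rfl; exact hab (by simpa using hub)
  obtain ⟨ab, r, hr', hexp⟩ := elementary_of_regular_normal h2 N (trivgPn.2 ⟨u, hu, u1⟩) a hr
  have fix : ∀ d ∈ D, d ≠ 1 → ∀ c, d • c = c → c = a ∨ c = b := fun d hd d1 c hc => by
    by_contra! k
    exact d1 (h3 d a b c hab k.2.symm k.1.symm hd.1 hd.2 hc)
  have uD : u ∈ C[D] := mem_cent.2 fun d hd => by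
    rw [← mul_inv_eq_iff_eq_mul]
    refine eq_of_smul_eq_of_semiregular hr (hN.conj_mem u hu d) hu ?_
    rw [mul_smul, mul_smul, (inv_mem hd).1, hub, hd.2]
  have cen : ∀ d ∈ D, d ≠ 1 → ∀ v ∈ N, v ∈ C1[d] → v = 1 ∨ v = u := fun d hd d1 v hv hc =>
    (fix d hd d1 (v • a) (by rw [← mul_smul, ← mem_cent1.1 hc, mul_smul, hd.1])).imp (hr v hv)
      fun e => eq_of_smul_eq_of_semiregular hr hv hu (e.trans hub.symm)
  obtain ⟨d, hd, d1⟩ := trivgPn.1 hD
  have uu : u ^ 2 = 1 := (cen d hd d1 _ (pow_mem hu 2) (pow_mem (cent_le_cent1 hd uD)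
    2)).resolve_right fun e => u1 (by rwa [sq, mul_eq_left] at e)
  haveI := Fact.mk Nat.prime_two
  have ou := orderOf_eq_prime uu u1
  obtain rfl : 2 = r := (Nat.prime_dvd_prime_iff_eq Nat.prime_two hr').1
    (ou ▸ orderOf_dvd_of_pow_eq_one (hexp u hu))
  have hV : Abelem 2 N := ⟨isMulCommutative_of_forall ab, hexp⟩
  have cX : ∀ X ≤ D, X ≠ ⊥ → #(N ⊓ C[X]) = 2 := fun X hX h1 => by
    obtain ⟨x, hx, x1⟩ := trivgPn.1 h1
    rw [← ou, ← Nat.card_zpowers]
    refine congrArg _ (congrArg _ (le_antisymm (fun v hv => ?_) (zpowers_le.2 ⟨hu, centS hX uD⟩)))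
    rcases cen x (hX hx) x1 v hv.1 (cent_le_cent1 hx hv.2) with rfl | rfl
    exacts [one_mem _, mem_zpowers _]
  obtain ⟨F, hF, htF⟩ := exists_kernel_stabilizer (G := G) a
    (fun y z hy hz => exists_smul_two h2 hy.symm hz.symm)
    fun g x y hx hy hxy => h3 g a x y hx.symm hxy hy.symm
  have cF := Zass.card_kernel hab hF htF
  have cN := card_eq_of_regular ht a hr
  obtain ⟨f, hf⟩ := hV.pg.exists_card_eq
  have hF1 : F ≠ ⊥ := by
    rintro rfl
    obtain ⟨c, hc⟩ := exists_smul_ne (α := Ω) d1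
    obtain ⟨v, hv, e⟩ := htF b c hab.symm (by rintro rfl; exact hc hd.1)
    rw [mem_bot.1 hv, one_smul] at e
    exact hc (e ▸ hd.2)
  have nF : D ≤ N[F] := le_norm_of_cj_le fun g hg _ hy => by
    obtain ⟨x, hx, rfl⟩ := mem_cj'.1 hy
    have hg' : g⁻¹ • a = a := (inv_mem hg).1
    rw [hF] at hx ⊢
    refine ⟨by rw [mul_smul, mul_smul, hg', hx.1, hg.1], hx.2.imp (fun h => by simp [h])
      fun h y hy h' => h (g⁻¹ • y) (fun h'' => hy ?_) ?_⟩
    · rw [inv_smul_eq_iff, hg.1] at h''; exact h''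
    · rw [mul_smul, mul_smul, smul_eq_iff_eq_inv_smul] at h'; exact h'
  have reg : Semiregular F D := fun x hx x1 => eq_bot_iff.2 fun v hv => mem_bot.2
    (Zass.kernel_eq_one hF hv.1 hab.symm ((fix x hx x1 _ (by
      rw [← mul_smul, ← mem_cent1.1 hv.2, mul_smul, hx.2])).resolve_left
        (Zass.kernel_smul_ne hF hv.1 hab.symm)))
  have l1 := (one_lt_card_iff_ne_bot F).2 hF1
  by_cases ho : Odd #D
  · have h0 : N ⊓ C[F] = ⊥ := eq_bot_iff.2 fun v hv => mem_bot.2 (hr v hv.1 (by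
      obtain ⟨x, hx, x1⟩ := trivgPn.1 hF1
      by_contra k
      exact x1 (Zass.kernel_eq_one hF hx k (by
        rw [← mul_smul, mem_cent.1 hv.2 x hx, mul_smul, ((hF x).1 hx).1]))))
    have oF : Odd #F := by
      rcases f with _ | f
      · omega
      · rw [Nat.odd_iff]; omega
    have key : ∀ X ≤ D, X ≠ ⊥ → #N = 2 ^ #X := fun X hX h1 => by
      rw [← cX X hX h1]
      refine (Frobenius_Wielandt_fixpoint (Frob.mk' (hX.trans nF) hF1 h1 (semiregularS le_rfl hX reg))
        (le_top.trans (normal_top N).norm) ?_ (pgroup_sol hV.pg)).2.2 h0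
      rw [hf]
      exact (Nat.coprime_two_left.2 ((oF.mul (oddSg hX ho)).of_dvd_nat
        (card_sup_dvd (Or.inr (hX.trans nF))))).pow_left _
    obtain ⟨q, hq, hqd⟩ := Nat.exists_prime_and_dvd ((one_lt_card_iff_ne_bot D).2 hD).ne'
    obtain ⟨X, hX, cx⟩ := Cauchy_sub hq hqd
    have e := key X hX (ne_bot_of_prime (cx ▸ hq))
    rw [cx] at e
    exact ⟨q, hq, cN ▸ e, Nat.pow_right_injective le_rfl ((key D le_rfl hD).symm.trans e), hV⟩
  · have ev := even_iff_two_dvd.1 (Nat.not_odd_iff_even.1 ho)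
    obtain ⟨t, ht', ot⟩ := Cauchy Nat.prime_two ev
    have t1 : t ≠ 1 := by rintro rfl; simp at ot
    have tt : t⁻¹ = t := by rw [inv_eq_iff_mul_eq_one, ← sq, ← ot, pow_orderOf_eq_one]
    have c := cX _ (zpowers_le.2 ht') (zpowers_ne_bot.2 t1)
    rw [C_zpowers] at c
    have i := relIndex_cent1_le_comm (L := N) (K := N ⊓ C1[t]) (x := t) fun v hv => by
      have vv : v⁻¹ = v := by rw [inv_eq_iff_mul_eq_one, ← sq, hexp v hv]
      have k := ab v hv _ (hN.conj_mem v hv t)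
      refine ⟨commg_subl (le_top.trans (normal_top N).norm) (commutator_mem_commutator hv (mem_top t)),
        mem_cent1.2 ?_⟩
      rw [commutatorElement_def, vv]
      calc _ = v * (t * v * t⁻¹) * t := by group
        _ = t * (v * t⁻¹ * v * t⁻¹⁻¹) := by rw [k]; group
        _ = _ := by rw [tt, tt]
    have e := card_inf_mul_relIndex C1[t] N
    rw [inf_comm, c] at e
    have f2 : f = 2 := by
      have : 2 ^ f < 2 ^ 3 := by omega
      have := (Nat.pow_lt_pow_iff_right one_lt_two).1 this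
      interval_cases f <;> omega
    subst f2
    have := regular_norm_dvd_pred nF reg
    rw [show #F - 1 = 2 by omega] at this
    exact ⟨2, Nat.prime_two, cN ▸ hf, Nat.dvd_antisymm this ev, hV⟩

end Cfsg.Agent.Perm
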