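import Mathlib.LinearAlgebra.Matrix.GeneralLinearGroup.Defs
import Mathlib.GroupTheory.OrderOfElement
import Mathlib.Data.ZMod.Basic

/-! A certificate that a subgroup of `GL(2, F)` given by generators acts regularly on the non-zero
vectors (`regular_of_tab`): tables for the second column and a rank function. -/

set_option autoImplicit false

namespace Cfsg.Agent.Perm

open Matrix

/-- Table lookup. -/
def tabN (p k T : ℕ) (a c : ZMod p) : ℕ := (T.shiftRight (k * (a.val * p + c.val))).mod (2 ^ k)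

theorem regular_of_tab {F : Type*} [CommRing F] [Nontrivial F] [Finite F] (S : Set (GL (Fin 2) F))
    (b d : F → F → F) (rk : F → F → ℕ) (h1 : b 1 0 = 0 ∧ d 1 0 = 1)
    (hcl : ∀ g ∈ S, ∀ a c : F, a = 0 ∧ c = 0 ∨
      (b (g 0 0 * a + g 0 1 * c) (g 1 0 * a + g 1 1 * c) = g 0 0 * b a c + g 0 1 * d a c ∧
       d (g 0 0 * a + g 0 1 * c) (g 1 0 * a + g 1 1 * c) = g 1 0 * b a c + g 1 1 * d a c))
    (hrk : ∀ a c : F, a = 0 ∧ c = 0 ∨ a = 1 ∧ c = 0 ∨
      ∃ g ∈ S, rk (g 0 0 * a + g 0 1 * c) (g 1 0 * a + g 1 1 * c) < rk a c) :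
    Nat.card (Subgroup.closure S) = Nat.card F ^ 2 - 1 ∧ ∀ v w : Fin 2 → F, v ≠ 0 → w ≠ 0 →
      ∃! h : Subgroup.closure S, ((h : GL (Fin 2) F) : Matrix (Fin 2) (Fin 2) F) *ᵥ v = w := by
  classical
  have hne : ∀ (h : GL (Fin 2) F) (v : Fin 2 → F), v ≠ 0 → (h : Matrix (Fin 2) (Fin 2) F) *ᵥ v ≠ 0 :=
    fun h v hv e => hv (by
      rw [← one_mulVec v, ← Units.inv_mul h, ← mulVec_mulVec, e, mulVec_zero])
  have he : (![1, 0] : Fin 2 → F) ≠ 0 := fun e => one_ne_zero (congrFun e 0)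
  have hcol : ∀ h : GL (Fin 2) F, (h : Matrix (Fin 2) (Fin 2) F) *ᵥ ![1, 0] = ![h 0 0, h 1 0] :=
    fun h => by funext i; fin_cases i <;> simp [mulVec, dotProduct]
  let P : GL (Fin 2) F → Prop := fun h => b (h 0 0) (h 1 0) = h 0 1 ∧ d (h 0 0) (h 1 0) = h 1 1
  have hP : ∀ g ∈ S, ∀ h, P h → P (g * h) := fun g hg h hh => by
    rcases hcl g hg (h 0 0) (h 1 0) with h2 | h2
    · exact absurd (by rw [hcol, h2.1, h2.2]; funext i; fin_cases i <;> rfl) (hne h _ he)
    · rw [hh.1, hh.2] at h2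
      simpa [P, Matrix.mul_apply] using h2
  have hP' : ∀ h ∈ Subgroup.closure S, P h := fun h hh => by
    induction hh using Subgroup.closure_induction_left with
    | one => simpa [P] using h1
    | mul_left g hg h _ ih => exact hP g hg h ih
    | inv_mul_cancel g hg h _ ih =>
      obtain ⟨n, hn⟩ := (mem_powers_iff_mem_zpowers (y := g⁻¹)).2 (inv_mem (Subgroup.mem_zpowers g))
      rw [← hn]
      clear hn
      induction n with
      | zero => simpa using ih
      | succ n ih' => simpa only [pow_succ', mul_assoc] using hP g hg _ ih'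
  have hinj : ∀ h k : Subgroup.closure S, ((h : GL (Fin 2) F) : Matrix (Fin 2) (Fin 2) F) *ᵥ ![1, 0] =
      ((k : GL (Fin 2) F) : Matrix (Fin 2) (Fin 2) F) *ᵥ ![1, 0] → h = k := fun h k e => by
    rw [hcol, hcol] at e
    have e0 : h.1 0 0 = k.1 0 0 := congrFun e 0
    have e1 : h.1 1 0 = k.1 1 0 := congrFun e 1
    have h2 := hP' _ h.2
    have h3 := hP' _ k.2
    refine Subtype.ext (GeneralLinearGroup.ext fun i j => ?_)
    fin_cases i <;> fin_cases j
    exacts [e0, h2.1.symm.trans (by rw [e0, e1]; exact h3.1), e1,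
      h2.2.symm.trans (by rw [e0, e1]; exact h3.2)]
  have hsurj : ∀ n, ∀ v : Fin 2 → F, v ≠ 0 → rk (v 0) (v 1) = n → ∃ h : Subgroup.closure S,
      ((h : GL (Fin 2) F) : Matrix (Fin 2) (Fin 2) F) *ᵥ ![1, 0] = v := fun n => by
    induction n using Nat.strong_induction_on with
    | _ n ih =>
      intro v hv hn
      rcases hrk (v 0) (v 1) with h2 | h2 | ⟨g, hg, h2⟩
      · exact absurd (by funext i; fin_cases i; exacts [h2.1, h2.2]) hv
      · exact ⟨1, by funext i; fin_cases i <;> simp [h2.1, h2.2]⟩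
      · obtain ⟨h, hh⟩ := ih _ (hn ▸ h2) _ (hne g v hv) (by simp [mulVec, dotProduct])
        refine ⟨(⟨g, Subgroup.subset_closure hg⟩ : Subgroup.closure S)⁻¹ * h, ?_⟩
        rw [Subgroup.coe_mul, Units.val_mul, ← mulVec_mulVec, hh, mulVec_mulVec]
        simp
  refine ⟨?_, fun v w hv hw => ?_⟩
  · have := Nat.card_eq_of_bijective (fun h : Subgroup.closure S => 
      (⟨_, hne h _ he⟩ : {v : Fin 2 → F // v ≠ 0}))
      ⟨fun h k e => hinj h k (congrArg Subtype.val e), fun v =>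
        (hsurj _ v v.2 rfl).imp fun h hh => Subtype.ext hh⟩
    have := Fintype.ofFinite F
    simp_all [Fintype.card_subtype_compl]
  · obtain ⟨g, rfl⟩ := hsurj _ v hv rfl
    obtain ⟨k, rfl⟩ := hsurj _ w hw rfl
    refine ⟨k * g⁻¹, by simp [mulVec_mulVec], fun h hh => ?_⟩
    rw [eq_mul_inv_iff_mul_eq]
    exact hinj _ _ (by rw [Subgroup.coe_mul, Units.val_mul, ← mulVec_mulVec]; exact hh)

end Cfsg.Agent.Perm
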