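import Cfsg.Agent.Classical.SL23
import Mathlib.GroupTheory.SemidirectProduct

/-! Recognition of `SL(2, 3)`: a group of order 24 with a normal subgroup `Q₈` not centralised by some element
of order 3 (`equiv_SL23`), or without subgroups of index 2 (`equiv_SL23_of_no_index_two`). -/

set_option autoImplicit false

namespace Cfsg.Agent.Perm

open Subgroup QuaternionGroup
open scoped MatrixGroups

def sl23I : SL(2, ZMod 3) := ⟨!![0, -1; 1, 0], by decide⟩
def sl23J : SL(2, ZMod 3) := ⟨!![1, 1; 1, -1], by decide⟩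

/-- The word in `x`, `y` representing an element of `Q₈`. -/
def q8Word {G : Type*} [Group G] (x y : G) : QuaternionGroup 2 → G
  | a k => x ^ k.val
  | xa k => y * x ^ k.val

theorem q8Word_self : ∀ s : QuaternionGroup 2, q8Word (a 1) (xa 0) s = s := by decide

theorem map_q8Word {G H : Type*} [Group G] [Group H] (f : G →* H) (x y : G) (s : QuaternionGroup 2) :
    f (q8Word x y s) = q8Word (f x) (f y) s := by cases s <;> simp [q8Word]

/-- The embedding of `Q₈` in `SL(2, 3)`. -/
def q8SL : QuaternionGroup 2 →* SL(2, ZMod 3) :=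
  MonoidHom.mk' (q8Word sl23I sl23J) (by decide +kernel)

set_option synthInstance.maxSize 100000 in
set_option synthInstance.maxHeartbeats 200000 in
theorem q8SL_aut : ∀ x y : QuaternionGroup 2, (∀ s t, q8Word x y (s * t) = q8Word x y s * q8Word x y t) →
    (∀ s, q8Word x y (q8Word x y (q8Word x y s)) = s) → (∀ s, q8Word x y s = s) ∨
    ∃ g : SL(2, ZMod 3), g ^ 3 = 1 ∧ (∀ s, q8SL (q8Word x y s) = g * q8SL s * g⁻¹) ∧
      ∀ s, ∀ k : Fin 3, q8SL s * g ^ (k : ℕ) = 1 → s = 1 ∧ k = 0 := by decide +kernel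

theorem equiv_SL23 {G : Type*} [Group G] (hG : Nat.card G = 24) {N : Subgroup G} [N.Normal]
    (e : N ≃* QuaternionGroup 2) {g : G} (hg : orderOf g = 3) (hc : g ∉ centralizer (N : Set G)) :
    Nonempty (G ≃* SL(2, ZMod 3)) := by
  classical
  haveI : Finite G := Nat.finite_of_card_ne_zero (by omega)
  have hg3 : g ^ 3 = 1 := hg ▸ pow_orderOf_eq_one g
  let α : QuaternionGroup 2 →* QuaternionGroup 2 :=
    e.toMonoidHom.comp ((MulAut.conjNormal g : MulAut N).toMonoidHom.comp e.symm.toMonoidHom)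
  have hα : ∀ s, q8Word (α (a 1)) (α (xa 0)) s = α s := fun s => by rw [← map_q8Word, q8Word_self]
  have hα' : ∀ n : N, α (e n) = e (MulAut.conjNormal g n) := fun n => by simp [α]
  rcases q8SL_aut (α (a 1)) (α (xa 0)) (fun s t => by simp only [hα, map_mul]) (fun s => by
      obtain ⟨n, rfl⟩ := e.surjective s
      simp only [hα, hα', ← MulAut.mul_apply, ← map_mul]
      rw [← mul_assoc, ← pow_three', hg3, map_one, MulAut.one_apply]) with h | ⟨u, hu, h1, h2⟩
  · refine absurd (fun n hn => ?_) hc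
    have := h (e ⟨n, hn⟩)
    rw [hα, hα', e.injective.eq_iff] at this
    exact (mul_inv_eq_iff_eq_mul.1 (congrArg Subtype.val this)).symm
  have hN : Nat.card N = 8 := by rw [Nat.card_congr e.toEquiv, Nat.card_eq_fintype_card, QuaternionGroup.card]
  have hc : N.IsComplement' (zpowers g) :=
    isComplement'_of_coprime (by rw [hN, Nat.card_zpowers, hg, hG]) (by rw [hN, Nat.card_zpowers, hg]; norm_num)
  let g' : zpowers g := ⟨g, mem_zpowers g⟩
  have hg' : ∀ x : zpowers g, x ∈ zpowers g' := fun ⟨_, k, hk⟩ => ⟨k, Subtype.ext hk⟩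
  have hd : orderOf u ∣ orderOf g' := by
    rw [← orderOf_coe, hg]; exact orderOf_dvd_of_pow_eq_one hu
  let fg := monoidHomOfForallMemZpowers hg' hd
  have hfg : fg g' = u := monoidHomOfForallMemZpowers_apply_gen hg' hd
  have hk : ∀ x : zpowers g, ∃ k : Fin 3, x = g' ^ (k : ℕ) := fun x => by
    obtain ⟨k, hk, e⟩ := (mem_zpowers_iff_mem_range_orderOf.1 (hg' x) |> Finset.mem_image.1)
    rw [Finset.mem_range, ← orderOf_coe, hg] at hk
    exact ⟨⟨k, hk⟩, e.symm⟩
  let f := SemidirectProduct.lift (φ := (N.normalizerMonoidHom).comp (inclusion (N.normalizer_eq_top ▸ le_top)))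
    (q8SL.comp e.toMonoidHom) fg fun x => by
      obtain ⟨k, rfl⟩ := hk x
      ext1 n
      generalize (k : ℕ) = m
      induction m with
      | zero => simp
      | succ m ih =>
        rw [pow_succ', map_mul, map_mul, map_mul, hfg]
        simp only [MonoidHom.comp_apply, MulEquiv.coe_toMonoidHom, MulAut.mul_apply] at ih ⊢
        rw [← ih, MulAut.conj_apply, ← h1, hα, hα']
        rfl
  have hf : Function.Injective f := (injective_iff_map_eq_one f).2 fun ⟨n, x⟩ hx => by
    obtain ⟨k, rfl⟩ := hk x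
    change q8SL (e n) * fg (g' ^ (k : ℕ)) = 1 at hx
    rw [map_pow, hfg] at hx
    obtain ⟨h3, rfl⟩ := h2 _ k hx
    rw [(map_eq_one_iff e e.injective).1 h3]
    exact SemidirectProduct.ext rfl (pow_zero _)
  let E := SemidirectProduct.mulEquivSubgroup hc
  exact ⟨E.symm.trans (MulEquiv.ofBijective f ((Nat.bijective_iff_injective_and_card f).2
    ⟨hf, by rw [Nat.card_congr E.toEquiv, hG, Classical.card_SL23 (Nat.card_zmod 3)]⟩))⟩

theorem equiv_SL23_of_no_index_two {G : Type*} [Group G] (hG : Nat.card G = 24) {N : Subgroup G} [N.Normal]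
    (e : N ≃* QuaternionGroup 2) (h : ∀ M : Subgroup G, M.index ≠ 2) : Nonempty (G ≃* SL(2, ZMod 3)) := by
  haveI : Finite G := Nat.finite_of_card_ne_zero (by omega)
  haveI := Fact.mk Nat.prime_three
  obtain ⟨g, hg⟩ := exists_prime_orderOf_dvd_card' (G := G) 3 (by rw [hG]; norm_num)
  refine equiv_SL23 hG e hg fun hc => h (zpowers ((e.symm (a 1) : G) * g)) ?_
  have h4 : orderOf (e.symm (a 1) : G) = 4 := by
    rw [orderOf_coe, MulEquiv.orderOf_eq, QuaternionGroup.orderOf_a_one]
  have h2 := card_mul_index (zpowers ((e.symm (a 1) : G) * g))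
  rw [Nat.card_zpowers, Commute.orderOf_mul_eq_mul_orderOf_of_coprime (hc _ (e.symm (a 1)).2)
    (by rw [h4, hg]; norm_num), h4, hg, hG] at h2
  omega

end Cfsg.Agent.Perm
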