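import Mathlib

/-! Strongly regular graphs in counting form (`Srg`, `srg_iff`), the operator `T = A - 2` on integer
functions for triangle-free graphs with eigenvalue `2` (`k = 3μ + 4`), the functions `H x y` and
their inner products (`sum_H`, `sum_H_mul`). -/

set_option autoImplicit false

namespace Cfsg.Agent.Perm

open Finset

variable {V : Type*}

/-- strongly regular graph, with `Set.ncard`. -/
structure Srg (G : SimpleGraph V) (n k l m : ℕ) : Prop where
  card : Nat.card V = n
  reg : ∀ v, {w | G.Adj v w}.ncard = k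
  adj : ∀ v w, G.Adj v w → {x | G.Adj v x ∧ G.Adj w x}.ncard = l
  nadj : ∀ v w, v ≠ w → ¬ G.Adj v w → {x | G.Adj v x ∧ G.Adj w x}.ncard = m

theorem srg_iff [Fintype V] {G : SimpleGraph V} [DecidableRel G.Adj] {n k l m : ℕ} :
    G.IsSRGWith n k l m ↔ Srg G n k l m := by
  have h1 : ∀ v, {w | G.Adj v w}.ncard = G.degree v := fun v => by
    rw [← SimpleGraph.card_neighborSet_eq_degree, ← Nat.card_eq_fintype_card]; rfl
  have h2 : ∀ v w, {x | G.Adj v x ∧ G.Adj w x}.ncard = Fintype.card (G.commonNeighbors v w) :=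
    fun v w => by rw [← Nat.card_eq_fintype_card]; rfl
  exact ⟨fun h => ⟨Nat.card_eq_fintype_card.trans h.card, fun v => (h1 v).trans (h.regular v),
      fun v w a => (h2 v w).trans (h.of_adj v w a), fun v w a b => (h2 v w).trans (h.of_not_adj a b)⟩,
    fun h => ⟨Nat.card_eq_fintype_card.symm.trans h.card, fun v => (h1 v).symm.trans (h.reg v),
      fun v w a => (h2 v w).symm.trans (h.adj v w a),
      fun v w a b => (h2 v w).symm.trans (h.nadj v w a b)⟩⟩

open Classical in
/-- indicator of a proposition. -/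
noncomputable def ind (p : Prop) : ℤ := if p then 1 else 0

theorem ind_pos {p : Prop} (h : p) : ind p = 1 := if_pos h
theorem ind_neg {p : Prop} (h : ¬ p) : ind p = 0 := if_neg h
theorem ind_nonneg (p : Prop) : 0 ≤ ind p := by unfold ind; split_ifs <;> norm_num
theorem ind_mul (p q : Prop) : ind p * ind q = ind (p ∧ q) := by
  unfold ind; by_cases p <;> by_cases q <;> simp [*]

theorem sum_ind [Fintype V] (p : V → Prop) : ∑ x, ind (p x) = ({x | p x}.ncard : ℤ) := by
  classical
  rw [Set.ncard_eq_toFinset_card', Set.toFinset_setOf, card_filter, Nat.cast_sum]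
  exact sum_congr rfl fun x _ => by unfold ind; split_ifs <;> rfl

theorem sum_ind_eq_mul [Fintype V] (a : V) (f : V → ℤ) : ∑ x, ind (a = x) * f x = f a := by
  rw [sum_eq_single a (fun b _ h => by rw [ind_neg h.symm, zero_mul]) (by simp), ind_pos rfl, one_mul]

namespace Srg

variable [Fintype V] (G : SimpleGraph V)

/-- the adjacency operator. -/
noncomputable def A (f : V → ℤ) (c : V) : ℤ := ∑ x, ind (G.Adj c x) * f x

/-- the operator `A - 2`. -/
noncomputable def T (f : V → ℤ) (c : V) : ℤ := A G f c - 2 * f c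

/-- common neighbours of `x, y` plus twice `x` and `y`. -/
noncomputable def W (x y c : V) : ℤ := ind (G.Adj x c ∧ G.Adj y c) + 2 * ind (x = c) + 2 * ind (y = c)

/-- `H x y = (A - 2) (W x y)`. -/
noncomputable def H (x y : V) : V → ℤ := T G (W G x y)

variable {G}

theorem sum_A_mul (f g : V → ℤ) : ∑ c, A G f c * g c = ∑ c, f c * A G g c := by
  simp only [A, sum_mul, mul_sum]
  rw [sum_comm]
  refine sum_congr rfl fun x _ => sum_congr rfl fun y _ => ?_
  rw [G.adj_comm y x]; ring

theorem sum_T_mul (f g : V → ℤ) : ∑ c, T G f c * g c = ∑ c, f c * T G g c := by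
  simp only [T, sub_mul, mul_sub, sum_sub_distrib, sum_A_mul]
  congr 1
  exact sum_congr rfl fun _ _ => by ring

theorem sum_W_mul (x y : V) (g : V → ℤ) : ∑ c, W G x y c * g c =
    ∑ c, ind (G.Adj x c ∧ G.Adj y c) * g c + 2 * g x + 2 * g y := by
  simp only [W, add_mul, sum_add_distrib, mul_assoc, ← mul_sum, sum_ind_eq_mul]

omit [Fintype V] in
theorem W_comm (x y : V) : W G x y = W G y x := by
  funext c; simp only [W, and_comm]; ring

theorem H_comm (x y : V) : H G x y = H G y x := by rw [H, H, W_comm]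

theorem H_eq (x y c : V) : H G x y c = ({p | G.Adj x p ∧ G.Adj y p ∧ G.Adj c p}.ncard : ℤ) +
    2 * ind (G.Adj c x) + 2 * ind (G.Adj c y) - 2 * W G x y c := by
  rw [H, T, A, ← sum_ind]
  simp only [mul_comm (ind (G.Adj c _)), sum_W_mul, ind_mul, and_assoc]

variable {n k l m : ℕ} (h : Srg G n k l m)
include h

theorem A_one (c : V) : A G (fun _ => 1) c = k := by
  simp only [A, mul_one, sum_ind, h.reg]

theorem common (v w : V) : ({x | G.Adj v x ∧ G.Adj w x}.ncard : ℤ) =
    (k - m) * ind (v = w) + (l - m) * ind (G.Adj v w) + m := by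
  by_cases e : v = w
  · subst e
    simp only [and_self, h.reg, ind_pos, ind_neg (G.irrefl (v := v))]; ring
  · by_cases a : G.Adj v w
    · rw [h.adj v w a, ind_neg e, ind_pos a]; ring
    · rw [h.nadj v w e a, ind_neg e, ind_neg a]; ring

theorem A_A (f : V → ℤ) (c : V) :
    A G (A G f) c = (k - m) * f c + (l - m) * A G f c + m * ∑ x, f x := by
  have : A G (A G f) c = ∑ y, ({x | G.Adj c x ∧ G.Adj y x}.ncard : ℤ) * f y := by
    simp only [A, mul_sum, ← sum_ind, sum_mul]
    rw [sum_comm]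
    refine sum_congr rfl fun y _ => sum_congr rfl fun x _ => ?_
    rw [← ind_mul, G.adj_comm x y, mul_assoc]
  simp only [this, h.common, add_mul, sum_add_distrib, mul_assoc, ← mul_sum, sum_ind_eq_mul]
  rfl

theorem sum_T (f : V → ℤ) : ∑ c, T G f c = (k - 2) * ∑ c, f c := by
  have := sum_T_mul (G := G) f fun _ => 1
  simp only [mul_one, T, h.A_one] at this ⊢
  rw [this, mul_comm, sum_mul]

end Srg

namespace Srg

variable [Fintype V] {G : SimpleGraph V} {n m : ℕ} (h : Srg G n (3 * m + 4) 0 m)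
include h

theorem no_tri {x y c : V} (a : G.Adj x y) (b : G.Adj x c) : ¬ G.Adj y c := fun d => by
  have := (Set.ncard_eq_zero (Set.toFinite _)).1 (h.adj x y a)
  exact (Set.eq_empty_iff_forall_notMem.1 this) c ⟨b, d⟩

theorem sum_T_T (f g : V → ℤ) : ∑ c, T G f c * T G g c =
    -(m + 4) * ∑ c, f c * T G g c + m * (∑ c, f c) * ∑ c, g c := by
  have : ∀ c, T G (T G g) c = -(m + 4) * T G g c + m * ∑ x, g x := fun c => by
    have h1 : A G (T G g) c = A G (A G g) c - 2 * A G g c := by
      simp only [T, A, mul_sub, sum_sub_distrib, mul_sum, mul_left_comm (2 : ℤ)]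
    rw [T, h1, h.A_A, T]
    push_cast; ring
  rw [sum_T_mul, mul_sum, mul_assoc, sum_mul, mul_sum, ← sum_add_distrib]
  exact sum_congr rfl fun c _ => by rw [this]; ring

variable {x y : V} (hne : x ≠ y) (hn : ¬ G.Adj x y)
include hne hn

theorem H_left : H G x y x = m - 4 := by
  have : {p | G.Adj x p ∧ G.Adj y p ∧ G.Adj x p} = {p | G.Adj x p ∧ G.Adj y p} := by
    ext p; simp only [Set.mem_setOf_eq]; tauto
  rw [H_eq, this, h.nadj x y hne hn, W, ind_neg G.irrefl, ind_neg hn, ind_neg (fun a => G.irrefl a.1),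
    ind_pos rfl, ind_neg hne.symm]
  ring

theorem H_right : H G x y y = m - 4 := by
  rw [H_comm, h.H_left hne.symm fun a => hn a.symm]

omit hne in
theorem H_adj {c : V} (a : G.Adj x c) : H G x y c = 2 := by
  have : {p | G.Adj x p ∧ G.Adj y p ∧ G.Adj c p} = ∅ :=
    Set.eq_empty_iff_forall_notMem.2 fun p hp => h.no_tri a hp.1 hp.2.2
  rw [H_eq, this, W, ind_pos a.symm, ind_neg a.ne, ind_neg (fun e : y = c => hn (e ▸ a))]
  by_cases b : G.Adj y c
  · rw [ind_pos b.symm, ind_pos ⟨a, b⟩]; simp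
  · rw [ind_neg fun d => b d.symm, ind_neg fun d => b d.2]; simp

omit hne in
theorem H_adj' {c : V} (a : G.Adj y c) : H G x y c = 2 := by
  rw [H_comm, h.H_adj (fun a => hn a.symm) a]

omit h hne hn in
theorem H_far {c : V} (h1 : x ≠ c) (h2 : y ≠ c) (h3 : ¬ G.Adj x c) (h4 : ¬ G.Adj y c) :
    H G x y c = ({p | G.Adj x p ∧ G.Adj y p ∧ G.Adj c p}.ncard : ℤ) := by
  rw [H_eq, W, ind_neg h1, ind_neg h2, ind_neg fun a => h3 a.symm, ind_neg fun a => h4 a.symm,
    ind_neg fun a => h3 a.1]
  ring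

theorem sum_W : ∑ c, W G x y c = m + 4 := by
  have := sum_W_mul (G := G) x y fun _ => 1
  simp only [mul_one, sum_ind, h.nadj x y hne hn] at this
  rw [this]; ring

theorem sum_H : ∑ c, H G x y c = (3 * m + 2) * (m + 4) := by
  rw [H, h.sum_T, h.sum_W hne hn]; push_cast; ring

theorem sum_H_mul {z : V} (hne' : x ≠ z) (hn' : ¬ G.Adj x z) :
    ∑ c, H G x y c * H G x z c = (m + 4) * (m ^ 2 + 8 - 2 * H G x z y) := by
  have h1 : ∑ c, ind (G.Adj x c ∧ G.Adj y c) * H G x z c = 2 * m := by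
    rw [← h.nadj x y hne hn, ← sum_ind, mul_sum]
    refine sum_congr rfl fun c _ => ?_
    by_cases a : G.Adj x c ∧ G.Adj y c
    · rw [h.H_adj hn' a.1, mul_comm]
    · rw [ind_neg a]; ring
  have h2 := h.sum_T_T (W G x y) (W G x z)
  rw [h.sum_W hne hn, h.sum_W hne' hn', sum_W_mul] at h2
  change ∑ c, H G x y c * H G x z c = -(m + 4) * (∑ c, ind (G.Adj x c ∧ G.Adj y c) * H G x z c +
    2 * H G x z x + 2 * H G x z y) + _ at h2
  rw [h2, h1, h.H_left hne' hn']
  ring

end Srg

theorem Srg.common_three [Fintype V] {G : SimpleGraph V} (h : Srg G 100 22 0 6) {x y c : V}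
    (hne : x ≠ y) (hn : ¬ G.Adj x y) (h1 : x ≠ c) (h2 : y ≠ c) (h3 : ¬ G.Adj x c) (h4 : ¬ G.Adj y c) :
    {p | G.Adj x p ∧ G.Adj y p ∧ G.Adj c p}.ncard = 2 := by
  have h' : Srg G 100 (3 * 6 + 4) 0 6 := h
  have a1 := h'.sum_H hne hn
  have a2 := h'.sum_H_mul hne hn hne hn
  rw [h'.H_right hne hn] at a2
  have a3 : ∑ c, (Srg.H G x y c - 2) ^ 2 = 0 := by
    have : ∀ c, (Srg.H G x y c - 2) ^ 2 = Srg.H G x y c * Srg.H G x y c - 4 * Srg.H G x y c + 4 :=
      fun c => by ring
    simp only [this, sum_add_distrib, sum_sub_distrib, ← mul_sum, a1, a2, sum_const, card_univ,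
      ← Nat.card_eq_fintype_card, h.card]
    norm_num
  have a4 := (sum_eq_zero_iff_of_nonneg fun c _ => sq_nonneg _).1 a3 c (mem_univ c)
  rw [Srg.H_far h1 h2 h3 h4, pow_eq_zero_iff two_ne_zero] at a4
  omega

end Cfsg.Agent.Perm
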