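import Cfsg.Agent.Perm.HSGraph

/-! Brouwer's theorem: an `srg(77,16,0,4)` is the block graph of an `S(3,6,22)` whose points are the
cocliques of size 21 (`exists_iso_block`). -/

set_option autoImplicit false

namespace Cfsg.Agent.Perm.S77

open Finset Srg

variable {V : Type*} [Fintype V] [DecidableEq V] {G : SimpleGraph V} (h : Srg G 77 (3 * 4 + 4) 0 4)
include h

omit [DecidableEq V] in
theorem ncard_union {x y c : V} (h1 : x ≠ y) (h2 : x ≠ c) (h3 : y ≠ c) (a1 : ¬ G.Adj x y)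
    (a2 : ¬ G.Adj x c) (a3 : ¬ G.Adj y c) : {w | G.Adj x w ∨ G.Adj y w ∨ G.Adj c w}.ncard =
      36 + {w | G.Adj x w ∧ G.Adj y w ∧ G.Adj c w}.ncard := by
  have : ∀ w, ind (G.Adj x w ∨ G.Adj y w ∨ G.Adj c w) = ind (G.Adj x w) + ind (G.Adj y w) +
      ind (G.Adj c w) - ind (G.Adj x w ∧ G.Adj y w) - ind (G.Adj x w ∧ G.Adj c w) -
      ind (G.Adj y w ∧ G.Adj c w) + ind (G.Adj x w ∧ G.Adj y w ∧ G.Adj c w) := fun w => by
    by_cases G.Adj x w <;> by_cases G.Adj y w <;> by_cases G.Adj c w <;> simp [ind, *]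
  zify
  rw [← sum_ind]
  simp only [this, sum_add_distrib, sum_sub_distrib, sum_ind, h.reg, h.nadj _ _ h1 a1, h.nadj _ _ h2 a2,
    h.nadj _ _ h3 a3]
  push_cast; ring

omit [DecidableEq V] in
theorem three_le_two {x y c : V} (h1 : x ≠ y) (h2 : x ≠ c) (h3 : y ≠ c) (a1 : ¬ G.Adj x y)
    (a2 : ¬ G.Adj x c) (a3 : ¬ G.Adj y c) : {w | G.Adj x w ∧ G.Adj y w ∧ G.Adj c w}.ncard ≤ 2 := by
  by_contra! hc
  obtain ⟨p, q, r, hp, hq, hr, pq, pr, qr⟩ := (Set.two_lt_ncard_iff (Set.toFinite _)).1 hc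
  have b1 := ncard_union h h1 h2 h3 a1 a2 a3
  have b2 := ncard_union h pq pr qr (h.no_tri hp.1 hq.1) (h.no_tri hp.1 hr.1) (h.no_tri hq.1 hr.1)
  have b3 : 2 < {w | G.Adj p w ∧ G.Adj q w ∧ G.Adj r w}.ncard :=
    (Set.two_lt_ncard_iff (Set.toFinite _)).2 ⟨x, y, c, ⟨hp.1.symm, hq.1.symm, hr.1.symm⟩,
      ⟨hp.2.1.symm, hq.2.1.symm, hr.2.1.symm⟩, ⟨hp.2.2.symm, hq.2.2.symm, hr.2.2.symm⟩, h1, h2, h3⟩
  have b4 := Set.ncard_union_eq (s := {w | G.Adj x w ∨ G.Adj y w ∨ G.Adj c w})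
    (t := {w | G.Adj p w ∨ G.Adj q w ∨ G.Adj r w}) (Set.disjoint_left.2 (by
      rintro w (a | a | a) (b | b | b)
      exacts [h.no_tri hp.1 a b, h.no_tri hq.1 a b, h.no_tri hr.1 a b, h.no_tri hp.2.1 a b,
        h.no_tri hq.2.1 a b, h.no_tri hr.2.1 a b, h.no_tri hp.2.2 a b, h.no_tri hq.2.2 a b,
        h.no_tri hr.2.2 a b]))
  have b5 := Set.ncard_le_ncard (Set.subset_univ ({w | G.Adj x w ∨ G.Adj y w ∨ G.Adj c w} ∪
    {w | G.Adj p w ∨ G.Adj q w ∨ G.Adj r w}))
  rw [Set.ncard_univ, h.card] at b5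
  omega

section line

variable {x y : V} (hne : x ≠ y) (hn : ¬ G.Adj x y)
include hne hn

omit [DecidableEq V]

theorem H_l : H G x y x = 0 := (h.H_left hne hn).trans (by norm_num)
theorem H_r : H G x y y = 0 := (h.H_right hne hn).trans (by norm_num)

theorem H_cases (c : V) : H G x y c = 0 ∨ H G x y c = 1 ∨ H G x y c = 2 := by
  by_cases e1 : x = c
  · exact Or.inl (e1 ▸ H_l h hne hn)
  by_cases e2 : y = c
  · exact Or.inl (e2 ▸ H_r h hne hn)
  by_cases a1 : G.Adj x c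
  · exact Or.inr (Or.inr (h.H_adj hn a1))
  by_cases a2 : G.Adj y c
  · exact Or.inr (Or.inr (h.H_adj' hn a2))
  have := three_le_two h hne e1 e2 hn a1 a2
  rw [H_far e1 e2 a1 a2]
  omega

theorem sum_H_sq : ∑ c, H G x y c * H G x y c = 192 := by
  rw [h.sum_H_mul hne hn hne hn, H_r h hne hn]; norm_num

theorem ncard_L : {c | H G x y c = 0}.ncard = 5 := by
  have : ∀ c, 2 * ind (H G x y c = 0) = H G x y c * H G x y c - 3 * H G x y c + 2 := fun c => by
    rcases H_cases h hne hn c with e | e | e <;> simp [e, ind]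
  have h1 := sum_congr (s₁ := univ) rfl fun c _ => this c
  simp only [sum_add_distrib, sum_sub_distrib, ← mul_sum, sum_ind, sum_H_sq h hne hn, h.sum_H hne hn,
    sum_const, card_univ, ← Nat.card_eq_fintype_card, h.card, nsmul_eq_mul] at h1
  omega

theorem ncard_M : {c | H G x y c = 1}.ncard = 32 := by
  have : ∀ c, ind (H G x y c = 1) = 2 * H G x y c - H G x y c * H G x y c := fun c => by
    rcases H_cases h hne hn c with e | e | e <;> simp [e, ind]
  have h1 := sum_congr (s₁ := univ) rfl fun c _ => this c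
  simp only [sum_sub_distrib, ← mul_sum, sum_ind, sum_H_sq h hne hn, h.sum_H hne hn] at h1
  omega

omit hne in
theorem nadj_l {c : V} (hc : H G x y c ≠ 2) : ¬ G.Adj x c := fun a => hc (h.H_adj hn a)
omit hne in
theorem nadj_r {c : V} (hc : H G x y c ≠ 2) : ¬ G.Adj y c := fun a => hc (h.H_adj' hn a)

theorem sum_sq_sub {z : V} (hne' : x ≠ z) (hn' : ¬ G.Adj x z) :
    ∑ c, (H G x y c - H G x z c) ^ 2 = 32 * H G x z y := by
  have : ∀ c, (H G x y c - H G x z c) ^ 2 = H G x y c * H G x y c + H G x z c * H G x z c -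
    2 * (H G x y c * H G x z c) := fun c => by ring
  simp only [this, sum_add_distrib, sum_sub_distrib, ← mul_sum, sum_H_sq h hne hn, sum_H_sq h hne' hn',
    h.sum_H_mul hne hn hne' hn']
  push_cast; ring

theorem H_swap {z : V} (hne' : x ≠ z) (hn' : ¬ G.Adj x z) : H G x y z = H G x z y := by
  have h1 := sum_sq_sub h hne hn hne' hn'
  have h2 := sum_sq_sub h hne' hn' hne hn
  simp only [sub_sq_comm (H G x z _)] at h2
  omega

theorem H_eq_of_zero {z : V} (hne' : x ≠ z) (hz : H G x y z = 0) : H G x z = H G x y := by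
  have hn' := nadj_l h hn (c := z) (by omega)
  have h1 := sum_sq_sub h hne' hn' hne hn
  rw [hz, mul_zero] at h1
  funext c
  exact sub_eq_zero.1 (pow_eq_zero_iff two_ne_zero |>.1
    ((sum_eq_zero_iff_of_nonneg fun c _ => sq_nonneg _).1 h1 c (mem_univ c)))

theorem H_line {u v : V} (hu : H G x y u = 0) (hv : H G x y v = 0) (huv : u ≠ v) :
    ¬ G.Adj u v ∧ H G u v = H G x y := by
  by_cases e : x = u
  · subst e
    exact ⟨nadj_l h hn (by omega), H_eq_of_zero h hne hn huv hv⟩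
  · have h1 := H_eq_of_zero h hne hn e hu
    have h2 : ¬ G.Adj u x := fun a => nadj_l h hn (c := u) (by omega) a.symm
    rw [H_comm] at h1
    rw [← h1] at hv ⊢
    exact ⟨nadj_l h h2 (by omega), H_eq_of_zero h (Ne.symm e) h2 huv hv⟩

end line

/-- cocliques of size 21. -/
def Co (G : SimpleGraph V) (C : Finset V) : Prop := C.card = 21 ∧ ∀ x ∈ C, ∀ y ∈ C, ¬ G.Adj x y

omit h in
theorem sum_mem_mul (C : Finset V) (f : V → ℤ) : ∑ c, ind (c ∈ C) * f c = ∑ c ∈ C, f c := by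
  rw [← sum_filter_add_sum_filter_not univ (· ∈ C), filter_mem_eq_inter, univ_inter,
    sum_eq_zero (s := filter _ _) fun c hc => by rw [ind_neg (mem_filter.1 hc).2, zero_mul], add_zero]
  exact sum_congr rfl fun c hc => by rw [ind_pos hc, one_mul]

theorem Co.T_eq {C : Finset V} (hC : Co G C) (d : V) :
    T G (fun c => ind (c ∈ C)) d = 6 - 8 * ind (d ∈ C) := by
  have h1 : ∀ d ∈ C, T G (fun c => ind (c ∈ C)) d = -2 := fun d hd => by
    rw [T, A, sum_eq_zero fun c _ => by rw [ind_mul, ind_neg fun a => hC.2 d hd c a.2 a.1], ind_pos hd]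
    norm_num
  have h2 : ∑ c, ind (c ∈ C) = 21 := by
    have := sum_mem_mul C fun _ => 1
    simpa [hC.1] using this
  have h3 : ∑ c, ind (c ∈ C) * T G (fun c => ind (c ∈ C)) c = -42 := by
    rw [sum_mem_mul, sum_congr rfl h1, sum_const, hC.1]; norm_num
  have h4 := h.sum_T_T (fun c => ind (c ∈ C)) fun c => ind (c ∈ C)
  have h5 := h.sum_T fun c => ind (c ∈ C)
  rw [h2] at h5
  rw [h2, h3] at h4
  have h6 : ∀ c, (T G (fun c => ind (c ∈ C)) c - (6 - 8 * ind (c ∈ C))) ^ 2 =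
      T G (fun c => ind (c ∈ C)) c * T G (fun c => ind (c ∈ C)) c - 12 * T G (fun c => ind (c ∈ C)) c +
      16 * (ind (c ∈ C) * T G (fun c => ind (c ∈ C)) c) - 32 * ind (c ∈ C) + 36 := fun c => by
    by_cases hc : c ∈ C
    · rw [ind_pos hc]; ring
    · rw [ind_neg hc]; ring
  have h7 : ∑ c, (T G (fun c => ind (c ∈ C)) c - (6 - 8 * ind (c ∈ C))) ^ 2 = 0 := by
    simp only [h6, sum_add_distrib, sum_sub_distrib, ← mul_sum, h2, h3, h4, h5, sum_const, card_univ,
      ← Nat.card_eq_fintype_card, h.card]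
    norm_num
  exact sub_eq_zero.1 (pow_eq_zero_iff two_ne_zero |>.1
    ((sum_eq_zero_iff_of_nonneg fun c _ => sq_nonneg _).1 h7 d (mem_univ d)))

theorem Co.line {C : Finset V} (hC : Co G C) {x y : V} (hx : x ∈ C) (hy : y ∈ C) (hne : x ≠ y) :
    (∀ c, H G x y c = 0 → c ∈ C) ∧ (C.filter fun c => H G x y c = 1).card = 16 := by
  have hn := hC.2 x hx y hy
  have h1 : ∑ c ∈ C, H G x y c = 16 := by
    rw [← sum_mem_mul]
    simp only [mul_comm (ind _), H, sum_T_mul, hC.T_eq h, sum_W_mul, ind_pos hx, ind_pos hy]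
    rw [sum_congr rfl (g := fun c => 6 * ind (G.Adj x c ∧ G.Adj y c)) fun c _ => by
      by_cases a : G.Adj x c ∧ G.Adj y c
      · rw [ind_neg fun hc => hC.2 x hx c hc a.1]; ring
      · rw [ind_neg a]; ring, ← mul_sum, sum_ind, h.nadj x y hne hn]
    norm_num
  have h2 : ∀ c, H G x y c = ind (H G x y c = 1) + 2 * ind (H G x y c = 2) := fun c => by
    rcases H_cases h hne hn c with e | e | e <;> simp [e, ind]
  have h3 : ∀ c, 1 = ind (H G x y c = 0) + ind (H G x y c = 1) + ind (H G x y c = 2) := fun c => by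
    rcases H_cases h hne hn c with e | e | e <;> simp [e, ind]
  have h4 : ∀ i : ℤ, ∑ c ∈ C, ind (H G x y c = i) = (C.filter fun c => H G x y c = i).card := fun i => by
    rw [card_filter, Nat.cast_sum]
    exact sum_congr rfl fun c _ => by unfold ind; split_ifs <;> rfl
  have h5 := sum_congr (s₁ := C) rfl fun c _ => h2 c
  have h6 := sum_congr (s₁ := C) rfl fun c _ => h3 c
  simp only [sum_add_distrib, ← mul_sum, h4, h1, sum_const, hC.1, nsmul_eq_mul] at h5 h6
  have h7 : ((C.filter fun c => H G x y c = 0 : Finset V) : Set V) ⊆ {c | H G x y c = 0} :=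
    fun c hc => (mem_filter.1 hc).2
  have h8 := Set.ncard_le_ncard h7
  rw [ncard_L h hne hn, Set.ncard_coe_finset] at h8
  have h9 := Set.eq_of_subset_of_ncard_le h7 (by rw [ncard_L h hne hn, Set.ncard_coe_finset]; omega)
  exact ⟨fun c hc => (mem_filter.1 (h9.ge hc :)).1, by omega⟩

theorem existsUnique_co {x y c : V} (hne : x ≠ y) (hn : ¬ G.Adj x y) (hc : H G x y c = 1) :
    ∃! C, Co G C ∧ x ∈ C ∧ y ∈ C ∧ c ∈ C := by
  let L : V → V → Finset V := fun u v => univ.filter fun w => H G u v w = 0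
  have mL : ∀ {u v w}, w ∈ L u v ↔ H G u v w = 0 := by simp [L]
  have cL : ∀ {u v}, u ≠ v → ¬ G.Adj u v → (L u v).card = 5 := fun h1 h2 => by
    rw [← ncard_L h h1 h2, ← Set.ncard_coe_finset]; simp [L]
  have h1 : ∀ u ∈ L x y, c ≠ u := fun u hu e => by rw [← e, mL] at hu; omega
  have h2 : ∀ u ∈ L x y, ∀ v ∈ L x y, u ≠ v → H G u v c = 1 := fun u hu v hv e => by
    rw [(H_line h hne hn (mL.1 hu) (mL.1 hv) e).2, hc]
  have h3 : ∀ u ∈ L x y, ¬ G.Adj c u := fun u hu a => by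
    obtain ⟨v, hv, e⟩ := exists_mem_ne (s := L x y) (by rw [cL hne hn]; norm_num) u
    exact nadj_l h (H_line h hne hn (mL.1 hu) (mL.1 hv) e.symm).1 (c := c)
      (by rw [h2 u hu v hv e.symm]; norm_num) a.symm
  have h4 : ∀ u ∈ L x y, ∀ v ∈ L x y, u ≠ v → ∀ p ∈ (L c u).erase c, ∀ q ∈ (L c v).erase c,
      p ≠ q ∧ ¬ G.Adj q p := fun u hu v hv e p hp q hq => by
    obtain ⟨p1, p2⟩ := mem_erase.1 hp
    obtain ⟨q1, q2⟩ := mem_erase.1 hq
    have a1 := nadj_l h (h3 u hu) (c := p) (by rw [mL.1 p2]; norm_num)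
    have a2 := nadj_l h (h3 v hv) (c := q) (by rw [mL.1 q2]; norm_num)
    have a3 := sum_sq_sub h p1.symm a1 q1.symm a2
    have a4 := (H_line h hne hn (mL.1 hu) (mL.1 hv) e).1
    rw [H_eq_of_zero h (h1 u hu) (h3 u hu) p1.symm (mL.1 p2),
      H_eq_of_zero h (h1 v hv) (h3 v hv) q1.symm (mL.1 q2),
      sum_sq_sub h (h1 u hu) (h3 u hu) (h1 v hv) (h3 v hv), H_comm c v,
      H_swap h (h1 v hv).symm (fun a => h3 v hv a.symm) e.symm (fun a => a4 a.symm),
      h2 v hv u hu e.symm, H_comm v c, ← H_eq_of_zero h (h1 v hv) (h3 v hv) q1.symm (mL.1 q2)] at a3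
    refine ⟨fun e => ?_, nadj_r h a2 (by omega)⟩
    rw [e, H_r h q1.symm a2] at a3
    omega
  let C := insert c ((L x y).biUnion fun u => (L c u).erase c)
  have c1 : C.card = 21 := by
    rw [card_insert_of_notMem (by simp), card_biUnion fun u hu v hv e => disjoint_left.2 fun p hp hq =>
      (h4 u hu v hv e p hp p hq).1 rfl, sum_congr rfl (g := fun _ => 4) fun u hu => by
        rw [card_erase_of_mem (mL.2 (H_l h (h1 u hu) (h3 u hu))), cL (h1 u hu) (h3 u hu)],
      sum_const, cL hne hn]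
    rfl
  have c2 : ∀ u ∈ L x y, u ∈ C := fun u hu => mem_insert_of_mem (mem_biUnion.2
    ⟨u, hu, mem_erase.2 ⟨(h1 u hu).symm, mL.2 (H_r h (h1 u hu) (h3 u hu))⟩⟩)
  have c3 : ∀ u ∈ L x y, ∀ p ∈ (L c u).erase c, ¬ G.Adj c p := fun u hu p hp =>
    nadj_l h (h3 u hu) (by rw [mL.1 (mem_erase.1 hp).2]; norm_num)
  refine ⟨C, ⟨⟨c1, fun p hp q hq => ?_⟩, c2 x (mL.2 (H_l h hne hn)), c2 y (mL.2 (H_r h hne hn)),
    mem_insert_self _ _⟩, fun D ⟨d1, d2, d3, d4⟩ => (eq_of_subset_of_card_le ?_ (d1.1.trans c1.symm).le).symm⟩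
  · rcases mem_insert.1 hp with rfl | hp <;> rcases mem_insert.1 hq with rfl | hq
    · exact G.irrefl
    · obtain ⟨u, hu, hq⟩ := mem_biUnion.1 hq
      exact c3 u hu q hq
    · obtain ⟨u, hu, hp⟩ := mem_biUnion.1 hp
      exact fun a => c3 u hu p hp a.symm
    · obtain ⟨u, hu, hp⟩ := mem_biUnion.1 hp
      obtain ⟨v, hv, hq⟩ := mem_biUnion.1 hq
      by_cases e : v = u
      · subst e
        by_cases e' : p = q
        · exact e' ▸ G.irrefl
        · exact (H_line h (h1 v hv) (h3 v hv) (mL.1 (mem_erase.1 hp).2) (mL.1 (mem_erase.1 hq).2) e').1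
      · exact (h4 v hv u hu e q hq p hp).2
  · intro p hp
    rcases mem_insert.1 hp with rfl | hp
    · exact d4
    · obtain ⟨u, hu, hp⟩ := mem_biUnion.1 hp
      exact (d1.line h d4 ((d1.line h d2 d3 hne).1 u (mL.1 hu)) (h1 u hu)).1 p (mL.1 (mem_erase.1 hp).2)

open Classical in
/-- the cocliques through a vertex. -/
noncomputable def bl (G : SimpleGraph V) (x : V) : Finset {C // Co G C} := univ.filter fun C => x ∈ C.1

omit h in
theorem mem_bl {x : V} {C : {C // Co G C}} : C ∈ bl G x ↔ x ∈ C.1 := by simp [bl]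

theorem card_inter_bl {x y : V} (hne : x ≠ y) (hn : ¬ G.Adj x y) : (bl G x ∩ bl G y).card = 2 := by
  classical
  have := card_mul_eq_card_mul (s := bl G x ∩ bl G y) (t := univ.filter fun c => H G x y c = 1)
    (fun C c => c ∈ C.1) (m := 16) (n := 1) (fun C hC => by
      rw [mem_inter, mem_bl, mem_bl] at hC
      rw [← (C.2.line h hC.1 hC.2 hne).2]
      congr 1; ext c; simp [and_comm]) fun c hc => by
      obtain ⟨C, ⟨c1, c2⟩, c3⟩ := existsUnique_co h hne hn (mem_filter.1 hc).2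
      refine card_eq_one.2 ⟨⟨C, c1⟩, Finset.ext fun D => ?_⟩
      simp only [mem_bipartiteBelow, mem_inter, mem_bl, mem_singleton, and_assoc]
      exact ⟨fun d => Subtype.ext (c3 _ ⟨D.2, d⟩), fun e => e ▸ c2⟩
  have h1 : (univ.filter fun c => H G x y c = 1).card = 32 := by
    rw [← ncard_M h hne hn, ← Set.ncard_coe_finset]; simp
  omega

theorem card_bl (x : V) : (bl G x).card = 6 := by
  classical
  have := card_mul_eq_card_mul (s := bl G x) (t := univ.filter fun y => x ≠ y ∧ ¬ G.Adj x y)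
    (fun C c => c ∈ C.1) (m := 20) (n := 2) (fun C hC => by
      rw [mem_bl] at hC
      have : (C.1.erase x).card = 20 := by rw [card_erase_of_mem hC, C.2.1]
      rw [← this]
      congr 1; ext c
      simp only [mem_bipartiteAbove, mem_filter, mem_univ, true_and, mem_erase]
      exact ⟨fun a => ⟨a.1.1.symm, a.2⟩, fun a => ⟨⟨a.1.symm, C.2.2 x hC c a.2⟩, a.2⟩⟩) fun y hy => by
      obtain ⟨-, h1, h2⟩ := mem_filter.1 hy
      rw [← card_inter_bl h h1 h2]
      congr 1; ext C; simp [mem_bl]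
  have h1 : ∀ y, 1 = ind (x = y) * 1 + ind (G.Adj x y) + ind (x ≠ y ∧ ¬ G.Adj x y) := fun y => by
    by_cases e : x = y
    · simp [ind, e]
    · by_cases a : G.Adj x y <;> simp [ind, e, a]
  have h2 := sum_congr (s₁ := univ) rfl fun y _ => h1 y
  rw [sum_add_distrib, sum_add_distrib, sum_ind_eq_mul x fun _ => 1, sum_ind, sum_ind, h.reg, sum_const,
    card_univ, ← Nat.card_eq_fintype_card, h.card, Set.ncard_eq_toFinset_card', Set.toFinset_setOf,
    nsmul_eq_mul] at h2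
  omega

theorem card_co : Nat.card {C // Co G C} = 22 := by
  classical
  have := card_mul_eq_card_mul (s := (univ : Finset {C // Co G C})) (t := (univ : Finset V))
    (fun C c => c ∈ C.1) (m := 21) (n := 6) (fun C _ => by
      rw [← C.2.1]; congr 1; ext c; simp) fun y _ => by
      rw [← card_bl h y]; congr 1
  rw [card_univ, card_univ, ← Nat.card_eq_fintype_card, ← Nat.card_eq_fintype_card, h.card] at this
  omega

theorem exists_iso_block : ∃ B : Set (Finset {C // Co G C}), IsSteinerSystem 3 6 B ∧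
    Nonempty (G ≃g blockGraph B) := by
  classical
  have h0 : ∀ x y, G.Adj x y → Disjoint (bl G x) (bl G y) := fun x y a => disjoint_left.2
    fun C h1 h2 => C.2.2 x (mem_bl.1 h1) y (mem_bl.1 h2) a
  obtain ⟨f1, f2⟩ := HS.steiner_of_range (f := bl G) (Nat.card_eq_fintype_card.symm.trans (card_co h))
    h.card (card_bl h) fun x y e => by
      by_cases a : G.Adj x y
      · rw [disjoint_iff_inter_eq_empty.1 (h0 x y a)]; simp
      · exact (card_inter_bl h e a).le
  refine ⟨_, f2, ⟨⟨Equiv.ofInjective _ f1, fun {x y} => (HS.block_adj f2).trans ⟨fun d => ?_, h0 x y⟩⟩⟩⟩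
  by_contra a
  have := card_inter_bl h (fun e => HS.ne_of_disj f2 d (by rw [e])) a
  rw [disjoint_iff_inter_eq_empty.1 (show Disjoint (bl G x) (bl G y) from d)] at this
  exact absurd this (by simp)

end Cfsg.Agent.Perm.S77
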