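import Cfsg.Agent.Perm.Mono
import Cfsg.Agent.Golay.Witt

/-! The ternary Golay code: its words `W i` (`i < 729`, `mem_iff_W`), counting (`ncard_W`),
self-orthogonality (`dot_eq_zero`), hexads (`hexads_eq`), diagonal and monomial automorphisms
(`diag_const`, `monoPerm_eq`). -/

set_option autoImplicit false

namespace Cfsg.Agent.Perm.Tern

open Finset Comp
open scoped Pointwise

/-- the encoding of the twelve positions. -/
def E : Enc ArrayPt 12 where
  enc p := 3 * p.1.val + p.2.val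
  dec k := (Fin.ofNat 4 (k / 3), (k : ZMod 3))
  enc_lt := by decide
  dec_enc := by decide
  enc_dec := by decide

/-- entry `k` of word number `i`. -/
def wN (i k : ℕ) : ℕ := (i % 3 * get 2 3 9765889 k + i / 3 % 3 * get 2 3 9077764 k +
  i / 9 % 3 * get 2 3 5784592 k + i / 27 % 3 * get 2 3 1673280 k + i / 81 % 3 * get 2 3 9586944 k +
  i / 243 % 3 * get 2 3 11096064 k) % 3

/-- word number `i`. -/
def W (i : ℕ) (p : ArrayPt) : ZMod 3 := wN i (E.enc p)

/-- the word with packed entries `c`. -/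
def R (c : ℕ) (p : ArrayPt) : ZMod 3 := get 2 3 c (E.enc p)

/-- the generators of the code. -/
def rows : List ℕ := [9765889, 9077764, 5784592, 1673280, 9586944, 11096064]

theorem mem_iff {x : ArrayPt → ZMod 3} : x ∈ ternaryGolayCode ↔ ∃ s : ZMod 3,
    (∀ i : Fin 4, ∑ r : ZMod 3, x (i, r) = -s) ∧ ∀ a b : ZMod 3,
      ∑ i : Fin 4, x (i, a * ![0, 1, 1, 1] i + b * ![1, 0, 1, 2] i) = s := by
  refine exists_congr fun s => and_congr_right fun _ => ⟨fun h a b =>
    h _ (Submodule.mem_span_pair.2 ⟨a, b, rfl⟩), fun h t ht => ?_⟩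
  obtain ⟨a, b, rfl⟩ := Submodule.mem_span_pair.1 ht
  exact h a b

theorem W_mem_span (i : ℕ) : W i ∈ Submodule.span (ZMod 3) {x | ∃ c ∈ rows, x = R c} := by
  have : W i = ((i % 3 : ℕ) : ZMod 3) • R 9765889 + ((i / 3 % 3 : ℕ) : ZMod 3) • R 9077764 +
      ((i / 9 % 3 : ℕ) : ZMod 3) • R 5784592 + ((i / 27 % 3 : ℕ) : ZMod 3) • R 1673280 +
      ((i / 81 % 3 : ℕ) : ZMod 3) • R 9586944 + ((i / 243 % 3 : ℕ) : ZMod 3) • R 11096064 := by
    funext p
    rw [W, wN, ZMod.natCast_mod]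
    simp only [Nat.cast_add, Nat.cast_mul, Pi.add_apply, Pi.smul_apply, smul_eq_mul, R]
  rw [this]
  refine add_mem (add_mem (add_mem (add_mem (add_mem ?_ ?_) ?_) ?_) ?_) ?_ <;>
    exact Submodule.smul_mem _ _ (Submodule.subset_span ⟨_, by decide, rfl⟩)

theorem W_mem (i : ℕ) : W i ∈ ternaryGolayCode := by
  refine Submodule.span_le.2 ?_ (W_mem_span i)
  have : ∀ c ∈ rows, R c ∈ ternaryGolayCode := by
    simp only [mem_iff]
    decide +kernel
  rintro _ ⟨c, hc, rfl⟩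
  exact this c hc

theorem eq_zero_of_info {y : ArrayPt → ZMod 3} (hy : y ∈ ternaryGolayCode) (h0 : y (0, 0) = 0)
    (h1 : y (0, 1) = 0) (h2 : y (0, 2) = 0) (h3 : y (1, 0) = 0) (h4 : y (1, 1) = 0)
    (h5 : y (2, 0) = 0) : y = 0 := by
  have h : ∀ a b c d e f : ZMod 3, (fun p : ArrayPt => (![![0, 0, 0], ![0, 0, a], ![0, b, c],
      ![d, e, f]] : Fin 4 → Fin 3 → ZMod 3) p.1 p.2) ∈ ternaryGolayCode →
      a = 0 ∧ b = 0 ∧ c = 0 ∧ d = 0 ∧ e = 0 ∧ f = 0 := by
    simp only [mem_iff]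
    decide +kernel
  have h6 : y = fun p : ArrayPt => (![![0, 0, 0], ![0, 0, y (1, 2)], ![0, y (2, 1), y (2, 2)],
      ![y (3, 0), y (3, 1), y (3, 2)]] : Fin 4 → Fin 3 → ZMod 3) p.1 p.2 := by
    funext ⟨i, r⟩
    fin_cases i <;> fin_cases r <;> first | rfl | assumption
  obtain ⟨a, b, c, d, e, f⟩ := h _ _ _ _ _ _ (h6 ▸ hy)
  funext ⟨i, r⟩
  fin_cases i <;> fin_cases r <;> assumption

set_option synthInstance.maxSize 1000 in
theorem mem_iff_W {x : ArrayPt → ZMod 3} : x ∈ ternaryGolayCode ↔ ∃ i < 729, x = W i := by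
  refine ⟨fun hx => ?_, fun ⟨i, _, e⟩ => e ▸ W_mem i⟩
  have h : ∀ a b c d e f : ZMod 3, ∀ i ∈ [a.val + 3 * b.val + 9 * c.val + 27 * d.val + 81 * e.val +
      243 * f.val], i < 729 ∧ a - W i (0, 0) = 0 ∧ b - W i (0, 1) = 0 ∧ c - W i (0, 2) = 0 ∧
      d - W i (1, 0) = 0 ∧ e - W i (1, 1) = 0 ∧ f - W i (2, 0) = 0 := by decide +kernel
  obtain ⟨h0, h1, h2, h3, h4, h5, h6⟩ := h (x (0, 0)) (x (0, 1)) (x (0, 2)) (x (1, 0)) (x (1, 1))
    (x (2, 0)) _ (List.mem_singleton_self _)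
  exact ⟨_, h0, sub_eq_zero.1 (eq_zero_of_info (sub_mem hx (W_mem _)) h1 h2 h3 h4 h5 h6)⟩

theorem le_span : ternaryGolayCode ≤ Submodule.span (ZMod 3) {x | ∃ c ∈ rows, x = R c} := fun x hx => by
  obtain ⟨i, -, rfl⟩ := mem_iff_W.1 hx
  exact W_mem_span i

theorem W_inj {i j : ℕ} (hi : i < 729) (hj : j < 729) (e : W i = W j) : i = j := by
  have h : ∀ i < 729, i = (W i (0, 0)).val + 3 * (W i (0, 1)).val + 9 * (W i (0, 2)).val +
      27 * (W i (1, 0)).val + 81 * (W i (1, 1)).val + 243 * (W i (2, 0)).val := by decide +kernel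
  rw [h i hi, h j hj, e]

theorem ncard_W {P : (ArrayPt → ZMod 3) → Prop} {f : ℕ → Bool} (h : ∀ i < 729, P (W i) ↔ f i = true) :
    {x | x ∈ ternaryGolayCode ∧ P x}.ncard = countLt 729 f := by
  rw [countLt_eq, ← Set.ncard_coe_finset, ← Set.InjOn.ncard_image (f := W) fun i hi j hj =>
    W_inj (mem_range.1 (mem_filter.1 hi).1) (mem_range.1 (mem_filter.1 hj).1)]
  congr 1; ext x
  constructor
  · rintro ⟨h1, h2⟩
    obtain ⟨i, hi, rfl⟩ := mem_iff_W.1 h1
    exact ⟨i, mem_coe.2 (mem_filter.2 ⟨mem_range.2 hi, (h i hi).1 h2⟩), rfl⟩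
  · rintro ⟨i, hi, rfl⟩
    exact ⟨W_mem i, (h i (mem_range.1 (mem_filter.1 hi).1)).2 (mem_filter.1 hi).2⟩

/-- the support of word number `i`. -/
def mk (i : ℕ) : ℕ := pack 1 12 fun k => (wN i k + 1) / 2

theorem supp_W {i : ℕ} (hi : i < 729) : ternarySupport (W i) = E.ofMask (mk i) := by
  have h : ∀ i < 729, ∀ p, W i p ≠ 0 ↔ (mk i).testBit (E.enc p) = true := by decide +kernel
  ext p
  simp only [ternarySupport, mem_filter, mem_univ, true_and, Enc.mem_ofMask, h i hi]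

theorem dot_eq_zero {x y : ArrayPt → ZMod 3} (hx : x ∈ ternaryGolayCode) (hy : y ∈ ternaryGolayCode) :
    ∑ p, x p * y p = 0 := by
  have h : ∀ c ∈ rows, ∀ d ∈ rows, ∑ p, R c p * R d p = 0 := by decide +kernel
  refine Submodule.span_induction₂ (p := fun x y _ _ => ∑ p, x p * y p = 0) ?_ (by simp) (by simp)
    ?_ ?_ ?_ ?_ (le_span hx) (le_span hy)
  · rintro _ _ ⟨c, hc, rfl⟩ ⟨d, hd, rfl⟩
    exact h c hc d hd
  · intro x y z _ _ _ h1 h2
    simp only [Pi.add_apply, add_mul, sum_add_distrib, h1, h2, add_zero]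
  · intro x y z _ _ _ h1 h2
    simp only [Pi.add_apply, mul_add, sum_add_distrib, h1, h2, add_zero]
  · intro r x y _ _ h1
    simp only [Pi.smul_apply, smul_eq_mul, mul_assoc, ← mul_sum, h1, mul_zero]
  · intro r x y _ _ h1
    simp only [Pi.smul_apply, smul_eq_mul, mul_left_comm _ r, ← mul_sum, h1, mul_zero]

theorem diag_const (c : ArrayPt → (ZMod 3)ˣ)
    (h : ∀ x ∈ ternaryGolayCode, monomialMap 1 c x ∈ ternaryGolayCode) (p q : ArrayPt) : c p = c q := by
  suffices h : ∀ q, c (0, 0) = c q by rw [← h p, h q]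
  intro q
  have h1 : ∀ q : ArrayPt, q ≠ (0, 0) → ∀ p, W (nthL 0 [0, 4, 10, 28, 82, 1, 244, 4, 1, 1, 1, 1] (E.enc q)) p *
      W (nthL 0 [0, 97, 208, 229, 229, 229, 565, 154, 154, 112, 187, 43] (E.enc q)) p =
      (if p = (0, 0) then 1 else 0) - if p = q then 1 else 0 := by decide +kernel
  by_cases e : q = (0, 0)
  · rw [e]
  have h2 := dot_eq_zero (h _ (W_mem (nthL 0 [0, 4, 10, 28, 82, 1, 244, 4, 1, 1, 1, 1] (E.enc q))))
    (W_mem (nthL 0 [0, 97, 208, 229, 229, 229, 565, 154, 154, 112, 187, 43] (E.enc q)))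
  simp only [monomialMap, Equiv.Perm.one_def, Equiv.refl_symm, Equiv.refl_apply, mul_assoc, h1 q e,
    mul_sub, sum_sub_distrib, mul_ite, mul_one, mul_zero, sum_ite_eq', mem_univ, if_true] at h2
  exact Units.ext (sub_eq_zero.1 h2)

/-- the hexads. -/
def hx : List ℕ := [63, 222, 237, 243, 347, 366, 373, 413, 427, 438, 455, 504, 591, 630, 633, 667, 679, 700, 725, 746, 791, 813, 826, 860, 867, 910, 945, 969, 978, 996, 1117, 1127, 1146, 1175, 1198, 1209, 1227, 1268, 1295, 1331, 1340, 1366, 1385, 1434, 1445, 1484, 1489, 1506, 1566, 1579, 1589, 1619, 1644, 1677, 1714, 1734, 1752, 1761, 1817, 1830, 1861, 1866, 1904, 1923, 1940, 1960, 2135, 2155, 2172, 2191, 2229, 2234, 2265, 2278, 2334, 2343, 2361, 2381, 2418, 2451, 2476, 2506, 2516, 2529, 2589, 2606, 2611, 2650, 2661, 2710, 2729, 2755, 2764, 2800, 2827, 2868, 2886, 2897, 2920, 2949, 2968, 2978, 3099, 3117, 3126, 3150, 3185, 3228, 3235, 3269, 3282, 3304, 3349, 3370, 3395, 3416, 3428, 3462,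 3465, 3504, 3591, 3640, 3657, 3668, 3682, 3722, 3729, 3748, 3852, 3858, 3873, 4032]

theorem hexads_eq : {h : Finset ArrayPt | ∃ x ∈ ternaryGolayCode, ternarySupport x = h ∧ h.card = 6} =
    sysOf E hx := by
  ext s
  constructor
  · rintro ⟨x, h1, rfl, h2⟩
    obtain ⟨i, hi, rfl⟩ := mem_iff_W.1 h1
    rw [supp_W hi] at h2 ⊢
    rw [Enc.card_ofMask] at h2
    have h := allLt_iff.1 (show allLt 729 (fun i => bor (not (Nat.beq (popc 12 (mk i)) 6))
      (memL (mk i) hx)) = true by decide +kernel) i hi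
    rw [h2] at h
    exact ofMask_mem_sysOf E (memL_iff.1 h)
  · rintro ⟨r, hr, rfl⟩
    have h := allL_iff.1 (show allL hx (fun r => band (Nat.beq (popc 12 r) 6) (anyL [134, 393, 289, 410, 439, 318, 335, 154, 32, 102, 269, 459, 284, 429, 379, 112, 17, 117, 415, 276, 97, 37, 141, 369, 247, 51, 83, 299, 327, 252, 479, 259, 354, 95, 39, 137, 301, 342, 49, 85, 144, 417, 272, 114, 10, 279, 325, 249, 156, 34, 100, 332, 306, 47, 87, 264, 432, 245, 110, 12, 262, 303, 405, 5, 90, 27, 346, 305, 441, 43, 91, 138, 353, 255, 120, 14, 109, 307, 330, 89, 45, 273, 423, 244, 146, 48, 86, 462, 263, 105, 29, 250, 315, 324, 35, 99, 258, 407, 270, 11, 135, 3, 142, 38, 96, 294, 406, 126, 4, 254, 411, 297, 101, 33, 248, 378, 261, 15, 28, 81, 13, 108, 271, 333, 246, 30, 82, 9, 36, 84, 1, 243]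
      fun i => band (Nat.blt i 729) (Nat.beq (mk i) r))) = true by decide +kernel) r hr
    simp only [band_eq, Bool.and_eq_true, anyL_iff, nbeq, nblt] at h
    obtain ⟨h1, i, -, h2, rfl⟩ := h
    exact ⟨_, W_mem i, supp_W h2, (E.card_ofMask _).trans h1⟩

theorem steiner : IsSteinerSystem 5 6 (sysOf E hx) :=
  isSteiner_sysOf _ (by norm_num) (by decide +kernel) (by decide +kernel) (by decide +kernel)

theorem card_aut : Nat.card (setSystemAut (sysOf E hx)) = 95040 := by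
  obtain ⟨E', h⟩ := Golay.uniq12 (by decide) steiner
  rw [h, (Golay.card_closure12 E').1]

theorem supp_mono (σ : Equiv.Perm ArrayPt) (c : ArrayPt → (ZMod 3)ˣ) (x : ArrayPt → ZMod 3) :
    ternarySupport (monomialMap σ c x) = σ • ternarySupport x := by
  ext p
  rw [← inv_smul_mem_iff]
  simp [ternarySupport, monomialMap, Equiv.Perm.smul_def, Equiv.Perm.inv_def]

theorem mem_monoPerm {c s : ℕ} {t : List ℕ} (h1 : isPermP 12 5 31 c = true)
    (h2 : ∀ j < 6, ∀ p, W (nthL 0 t j) (E.dec (get 5 31 c (E.enc p))) =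
      (if s.testBit (get 5 31 c (E.enc p)) then -1 else 1) * R (nthL 0 rows j) p) :
    ∃ g ∈ monoPerm ternaryGolayCode, PRep E 5 31 c g := by
  have h3 := E.toPerm_rep h1
  refine ⟨_, ⟨fun p => if s.testBit (E.enc p) then -1 else 1, mono_of_span le_span ?_⟩, h3⟩
  rintro _ ⟨r, hr, rfl⟩
  obtain ⟨j, hj, rfl⟩ : ∃ j < 6, r = nthL 0 rows j := by revert r; decide
  convert W_mem (nthL 0 t j) using 1
  funext p
  obtain ⟨p, rfl⟩ := (E.toPerm 5 31 c).surjective p
  have h4 : get 5 31 c (E.enc p) = E.enc (E.toPerm 5 31 c p) := h3 p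
  have h5 := h2 j hj p
  rw [h4, E.dec_enc] at h5
  rw [h5, monomialMap, Equiv.symm_apply_apply]
  split_ifs <;> rfl

theorem monoPerm_eq : monoPerm ternaryGolayCode = setSystemAut (sysOf E hx) := by
  refine eq_of_chainP (E := E) (w := 5) (m := 31) (B := [0, 1, 2, 3, 4]) (L := [368322382208796704,
    187261270136817696, 149858218975463456, 368489371381440544, 46522685485814880, 402061956122477834])
    (by decide) ?_ ?_ 30 (by rw [card_aut]; decide +kernel)
  · rintro σ ⟨c, hc⟩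
    rw [← hexads_eq]
    refine mem_setSystemAut_of (Set.toFinite _) ?_
    rintro _ ⟨x, h1, rfl, h2⟩
    exact ⟨_, hc x h1, supp_mono σ c x, by rw [card_smul_finset, h2]⟩
  · intro c hc
    simp only [List.mem_cons, List.not_mem_nil, or_false] at hc
    rcases hc with rfl | rfl | rfl | rfl | rfl | rfl
    · exact mem_monoPerm (s := 6) (t := [82, 168, 180, 189, 243, 162]) (by decide +kernel) (by decide +kernel)
    · exact mem_monoPerm (s := 4090) (t := [487, 87, 657, 621, 648, 405]) (by decide +kernel)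
        (by decide +kernel)
    · exact mem_monoPerm (s := 0) (t := [190, 219, 144, 54, 162, 459]) (by decide +kernel) (by decide +kernel)
    · exact mem_monoPerm (s := 1482) (t := [64, 204, 90, 234, 126, 621]) (by decide +kernel)
        (by decide +kernel)
    · exact mem_monoPerm (s := 2928) (t := [7, 114, 165, 90, 654, 168]) (by decide +kernel)
        (by decide +kernel)
    · exact mem_monoPerm (s := 1604) (t := [108, 135, 138, 234, 648, 55]) (by decide +kernel)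
        (by decide +kernel)

end Cfsg.Agent.Perm.Tern
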