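import Cfsg.Agent.Perm.Orbital
import Cfsg.Agent.Perm.Regular
import Cfsg.Agent.Char.Galois
import Cfsg.Agent.S0157
import Mathlib.Analysis.Fourier.FiniteAbelian.PontryaginDuality
import Mathlib.NumberTheory.LegendreSymbol.AddCharacter
import Mathlib.RingTheory.Polynomial.Cyclotomic.Roots

/-! Tools for Wielandt's theorem on primitive groups of degree `2p`: the constituent of degree `p`
(`exists_char_two_p`), coordinates (`exists_coord_two`), Fourier transform of invariant matrices. -/

set_option autoImplicit false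

namespace Cfsg.Agent.Perm

open MulAction Char Matrix Finset

variable {G Ω : Type*} [Group G] [MulAction G Ω] {p : ℕ}

theorem not_fixed_of_mem_zpowers (hp : p.Prime) {x h : G} (hx : orderOf x = p)
    (hf : ∀ y : Ω, x • y ≠ y) (hh : h ∈ Subgroup.zpowers x) (h1 : h ≠ 1) (y : Ω) : h • y ≠ y := by
  have : Fact p.Prime := ⟨hp⟩
  have := mem_zpowers_of_prime_card (G := Subgroup.zpowers x) (g := ⟨h, hh⟩)
    (g' := ⟨x, Subgroup.mem_zpowers x⟩) (by rw [Nat.card_zpowers, hx]) fun e => h1 (congrArg Subtype.val e)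
  exact fun e => hf y ((Subgroup.zpowers_le_of_mem e : _ ≤ stabilizer (Subgroup.zpowers x) y) this)

theorem exists_char_two_p [Fintype G] [Fintype Ω] [FaithfulSMul G Ω] [IsPreprimitive G Ω]
    (hp : p.Prime) (hΩ : Fintype.card Ω = 2 * p) {x : G} (hx : orderOf x = p)
    (hf : ∀ y : Ω, x • y ≠ y) (h2 : ¬ IsMultiplyPretransitive G Ω 2) :
    ∃ χ, IsIrrCharacter G χ ∧ χ ≠ (fun _ => 1) ∧ classInner (pch G Ω) χ = 1 ∧ χ 1 = p ∧
      ∀ h ∈ Subgroup.zpowers x, h ≠ 1 → χ h = 0 := by
  classical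
  have hp2 := hp.two_le
  have : Nonempty Ω := Fintype.card_pos_iff.1 (by omega)
  have hπ : IsCharacter G (pch G Ω) := isCharacter_card_fixedBy Ω
  have hπ1 : pch G Ω 1 = 2 * p := by simp [pch, hΩ]
  set P := Subgroup.zpowers x
  have hP : Nat.card P = p := by rw [Nat.card_zpowers, hx]
  have hx1 : x ≠ 1 := by rintro rfl; simp at hx; omega
  have key : ∀ (θ : G → ℂ) (w : ℂ), (∀ h ∈ P, h ≠ 1 → θ h = w) →
      p * classInner (fun h : P => θ h) (fun _ => 1) = θ 1 + (p - 1) * w := fun θ w h => by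
    rw [← hP, card_mul_classInner, ← add_sum_erase _ _ (mem_univ 1), sum_congr rfl (g := fun _ => w)
      fun u hu => by simp [h u u.2 fun e => ne_of_mem_erase hu (Subtype.ext e)]]
    simp [Nat.cast_sub Fintype.card_pos]
  obtain ⟨m, h1, h3⟩ := hπ.exists_nat_coeff
  choose a ha using fun χ : IrrCharacter G => (χ.2.isCharacter.restrict P).exists_nat_classInner
    isCharacter_one
  have h4 : ∑ χ, m χ * a χ = 2 := by
    have := key (pch G Ω) 0 fun h h1 h2 => by
      simp [pch, eq_false (not_fixed_of_mem_zpowers hp hx hf h1 h2 _), fixedBy]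
    rw [hπ1, mul_zero, add_zero, mul_comm, mul_left_inj' (by simp; omega),
      show (fun h : P => pch G Ω h) = ∑ φ : IrrCharacter G, (m φ : ℂ) • fun h : P => φ.1 h from
        funext fun h => (congrFun h3 h).trans (by simp), classInner_sum_left] at this
    simp only [classInner_smul_left, ha] at this
    exact_mod_cast this
  have h5 : m (irrOne G) = 1 := by exact_mod_cast (h1 (irrOne G)).symm.trans inner_pch_one
  have h6 : a (irrOne G) = 1 := by
    exact_mod_cast (ha (irrOne G)).symm.trans isIrrCharacter_one.classInner_self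
  rw [← add_sum_erase _ _ (mem_univ (irrOne G)), h5, h6] at h4
  obtain ⟨χ, h7, h8⟩ := exists_ne_zero_of_sum_ne_zero (by omega :
    ∑ χ ∈ univ.erase (irrOne G), m χ * a χ ≠ 0)
  rw [← add_sum_erase _ _ h7] at h4
  have hχ1 : χ.1 ≠ fun _ => 1 := fun e => ne_of_mem_erase h7 (Subtype.ext e)
  have h9 : m χ = 1 := Nat.eq_one_of_mul_eq_one_right (by omega : m χ * a χ = 1)
  have h10 : a χ = 1 := Nat.eq_one_of_mul_eq_one_left (by omega : m χ * a χ = 1)
  have h11 : ∀ j : ℕ, j.Coprime p → χ.1 (x ^ j) = χ.1 x := fun j hj => by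
    obtain ⟨σ, hσ⟩ := exists_ringEquiv_pow hp.ne_zero hj
    rw [χ.2.isCharacter.apply_pow_eq_map σ.toRingHom hσ (hx ▸ pow_orderOf_eq_one x)]
    let ψ : IrrCharacter G := ⟨_, χ.2.map_ringHom σ.toRingHom⟩
    refine congrFun (congrArg Subtype.val (show ψ = χ from ?_)) x
    by_contra hc
    have e1 := classInner_map_ringHom (pch G Ω) χ.2.isGeneralizedCharacter σ.toRingHom
    have e2 := classInner_map_ringHom (fun h : P => χ.1 h) isGeneralizedCharacter_one σ.toRingHom
    simp only [map_natCast, map_one, ha, h1, h9, h10] at e1 e2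
    have e3 := sum_eq_zero_iff.1 (by omega : ∑ ψ ∈ (univ.erase (irrOne G)).erase χ, m ψ * a ψ = 0) ψ
      (mem_erase.2 ⟨hc, mem_erase.2 ⟨fun e => hχ1 (funext fun g => σ.injective
        ((congrFun (congrArg Subtype.val e) g).trans (map_one σ).symm)), mem_univ _⟩⟩)
    rw [Nat.cast_inj.1 ((h1 ψ).symm.trans e1), Nat.cast_inj.1 ((ha ψ).symm.trans e2)] at e3
    omega
  have h12 : ∀ h ∈ P, h ≠ 1 → χ.1 h = χ.1 x := fun h hh h' => by
    obtain ⟨j, rfl⟩ := (mem_powers_iff_mem_zpowers.2 hh)
    exact h11 j (hp.coprime_iff_not_dvd.2 fun e => h' (orderOf_dvd_iff_pow_eq_one.1 (hx ▸ e))).symm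
  obtain ⟨w, hw⟩ := χ.2.isGeneralizedCharacter.exists_int_of_forall_pow (hx ▸ h11)
  obtain ⟨d, hd0, hd⟩ := χ.2.exists_pos_apply_one
  have h13 := key _ _ h12
  rw [ha, h10, hw, hd] at h13
  replace h13 : (p : ℤ) = d + (p - 1) * w := Int.cast_injective (α := ℂ) (by simpa using h13)
  obtain ⟨θ₁, hθ₁, h14⟩ := hπ.exists_add_of_classInner_ne_zero isIrrCharacter_one
    (by rw [inner_pch_one]; exact one_ne_zero)
  obtain ⟨θ, hθ, rfl⟩ := IsCharacter.exists_add_of_classInner_ne_zero hθ₁ χ.2 (show classInner θ₁ χ ≠ 0 by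
    have := h1 χ
    rw [h14, classInner_add_left, isIrrCharacter_one.classInner_eq_zero_of_ne χ.2 hχ1.symm] at this
    simp [show classInner θ₁ χ = m χ by simpa using this, h9])
  obtain ⟨e, he⟩ := hθ.exists_nat_apply_one
  have h15 := congrFun h14 1
  simp only [hπ1, Pi.add_apply, hd, he] at h15
  replace h15 : 2 * p = 1 + (d + e) := by exact_mod_cast h15
  obtain h | rfl | h := lt_trichotomy w 0
  · refine (h2 ((S0157.result Ω (by simp; omega)).1 ?_)).elim
    rw [hθ.eq_zero_of_apply_one (by rw [he, Nat.cast_eq_zero]; nlinarith)] at h14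
    convert χ.2 using 1
    funext g
    rw [show (Nat.card (fixedBy Ω g) : ℂ) = _ from congrFun h14 g]
    simp
  · exact ⟨χ, χ.2, hχ1, by rw [h1, h9, Nat.cast_one], by rw [hd, Nat.cast_inj]; omega,
      fun h hh h' => by rw [h12 h hh h', hw, Int.cast_zero]⟩
  · exfalso
    obtain rfl : d = 1 := by nlinarith
    obtain rfl : w = 1 := mul_left_cancel₀ (a := (p : ℤ) - 1) (by omega) (by omega)
    have := χ.2.isClassFunction.normal_charKer
    have := isPretransitive_of_normal (α := Ω) (charKer χ.1) fun e => hx1 (Subgroup.mem_bot.1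
      (e ▸ χ.2.isCharacter.mem_charKer.2 (by simp [hw, hd])))
    have h16 := inner_pch_one (G := charKer χ.1) (Ω := Ω)
    obtain ⟨n, hn⟩ := (hθ.restrict (charKer χ.1)).exists_nat_classInner isCharacter_one
    rw [show pch (charKer χ.1) Ω = (fun _ => 1) + ((fun _ => 1) + fun h : charKer χ.1 => θ h) from
      funext fun h => (congrFun h14 h).trans (by simp [χ.2.isCharacter.mem_charKer.1 h.2, hd]),
      classInner_add_left, classInner_add_left, hn, isIrrCharacter_one.classInner_self] at h16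
    exact Nat.cast_add_one_ne_zero n (by simpa [add_comm] using h16)

theorem exists_coord_two [Fintype Ω] [hp : Fact p.Prime] (hΩ : Fintype.card Ω = 2 * p) {x : G}
    (hx : orderOf x = p) (hf : ∀ y : Ω, x • y ≠ y) (a : Ω) : ∃ e : Bool × ZMod p ≃ Ω,
    e (false, 0) = a ∧ ∀ ε i j, x ^ i.val • e (ε, j) = e (ε, i + j) := by
  classical
  have h1 : ∀ (i j : ZMod p) (y : Ω), x ^ i.val • x ^ j.val • y = x ^ (i + j).val • y := fun i j y => by
    rw [← mul_smul, ← pow_add, ZMod.val_add, ← pow_eq_pow_mod _ (hx ▸ pow_orderOf_eq_one x)]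
  have h2 : ∀ y : Ω, Function.Injective fun i : ZMod p => x ^ i.val • y := fun y i j e => by
    by_contra hc
    have h3 : x ^ (-j + i).val • y = y := by rw [← h1, show x ^ i.val • y = _ from e, h1]; simp
    refine not_fixed_of_mem_zpowers hp.out hx hf (Subgroup.pow_mem _ (Subgroup.mem_zpowers x) _)
      (fun e => hc ?_) y h3
    rw [← orderOf_dvd_iff_pow_eq_one, hx, ← ZMod.natCast_eq_zero_iff, ZMod.natCast_zmod_val] at e
    exact (neg_add_eq_zero.1 e).symm
  obtain ⟨b, -, hb⟩ := exists_mem_notMem_of_card_lt_card (s := univ.image fun i : ZMod p => x ^ i.val • a)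
    (t := univ) (by rw [card_image_of_injective _ (h2 a), card_univ, card_univ, ZMod.card, hΩ]
                    have := hp.out.pos
                    omega)
  have h4 : ∀ i j : ZMod p, x ^ i.val • a ≠ x ^ j.val • b := fun i j e =>
    hb (mem_image.2 ⟨-j + i, mem_univ _, by rw [← h1, e, h1]; simp⟩)
  refine ⟨Equiv.ofBijective (fun z => x ^ z.2.val • (bif z.1 then b else a)) ?_,
    by rw [Equiv.ofBijective_apply]; simp, fun ε i j => h1 _ _ _⟩
  rw [Fintype.bijective_iff_injective_and_card, hΩ]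
  refine ⟨?_, by simp⟩
  rintro ⟨_ | _, i⟩ ⟨_ | _, j⟩ e
  exacts [congrArg _ (h2 a e), (h4 i j e).elim, (h4 j i e.symm).elim, congrArg _ (h2 b e)]

theorem two_by_two {E N : Matrix Bool Bool ℂ} (h : E.trace = 1) (h1 : N * E = 0) (h2 : E * N = 0) :
    N = N.trace • (1 - E) := by
  have a := fun i j => congrFun (congrFun h1 i) j
  have b := fun i j => congrFun (congrFun h2 i) j
  simp only [mul_apply, Fintype.sum_bool, Matrix.zero_apply, Matrix.trace, diag_apply] at a b h
  ext (_ | _) (_ | _) <;> simp [Matrix.trace]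
  · linear_combination a false false - b true true + (N true true) * h
  · linear_combination a false true + b false true - (N false true) * h
  · linear_combination a true false + b true false - (N true false) * h
  · linear_combination a true true - b false false + (N false false) * h

variable [Fact p.Prime]

theorem sum_hat_mul (u v : ZMod p → ℂ) : ∑ ψ : AddChar (ZMod p) ℂ, (∑ i, u i * ψ i) * ∑ j, v j * ψ j =
    p * ∑ i, u i * v (-i) := by
  simp only [sum_mul_sum, mul_mul_mul_comm (u _), ← AddChar.map_add_eq_mul]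
  rw [sum_comm, mul_sum]
  refine sum_congr rfl fun i _ => ?_
  rw [sum_comm]
  simp [← mul_sum, AddChar.sum_apply_eq_ite, add_eq_zero_iff_neg_eq, mul_comm]

theorem eq_of_sum_eq_zero : ∃ ψ : AddChar (ZMod p) ℂ, ∀ u : ZMod p → ℂ, (∀ j, ∃ q : ℚ, u j = q) →
    ∑ j, u j * ψ j = 0 → ∀ j, u j = u 0 := by
  have hp : p.Prime := Fact.out
  have hζ := Complex.isPrimitiveRoot_exp p hp.ne_zero
  refine ⟨AddChar.zmodChar p hζ.pow_eq_one, fun u hu h j => ?_⟩
  choose q hq using hu
  obtain ⟨n, rfl⟩ := Nat.exists_eq_succ_of_ne_zero hp.ne_zero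
  simp only [hq] at h ⊢
  exact congrArg _ ((hζ.sum_eq_zero_iff_forall_eq hp q).1 h j 0)

/-- Fourier transform of a matrix invariant under a semiregular element with two orbits. -/
noncomputable def hat (e : Bool × ZMod p ≃ Ω) (ψ : AddChar (ZMod p) ℂ) (M : Matrix Ω Ω ℂ) :
    Matrix Bool Bool ℂ := of fun ε δ => ∑ j, M (e (ε, 0)) (e (δ, j)) * ψ j

variable {e : Bool × ZMod p ≃ Ω} {ψ : AddChar (ZMod p) ℂ} {M N : Matrix Ω Ω ℂ} {x : G}

theorem hat_apply (ε δ : Bool) : hat e ψ M ε δ = ∑ j, M (e (ε, 0)) (e (δ, j)) * ψ j := rfl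

theorem hat_smul (c : ℂ) : hat e ψ (c • M) = c • hat e ψ M := by
  ext; simp [hat_apply, mul_sum, mul_assoc]

theorem hat_sub : hat e ψ (M - N) = hat e ψ M - hat e ψ N := by
  ext; simp [hat_apply, sub_mul]

theorem hat_one [DecidableEq Ω] : hat e ψ 1 = 1 := by
  ext; simp [hat_apply, one_apply, ite_and]

theorem trace_hat : (hat e ψ M).trace =
    ∑ j, (M (e (true, 0)) (e (true, j)) + M (e (false, 0)) (e (false, j))) * ψ j := by
  simp [Matrix.trace, hat_apply, add_mul, sum_add_distrib]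

theorem sum_trace_hat : ∑ ψ, (hat e ψ M).trace =
    p * (M (e (true, 0)) (e (true, 0)) + M (e (false, 0)) (e (false, 0))) := by
  simp only [trace_hat]
  rw [sum_comm]
  simp only [← mul_sum, AddChar.sum_apply_eq_ite]
  simp [mul_comm]

variable (he : ∀ ε (i j : ZMod p), x ^ i.val • e (ε, j) = e (ε, i + j))
include he

theorem MInv.shift (h : MInv G M) (ε δ : Bool) (i j : ZMod p) :
    M (e (ε, i)) (e (δ, i + j)) = M (e (ε, 0)) (e (δ, j)) := by
  rw [← h (x ^ i.val) (e (ε, 0)), he, he, add_zero]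

variable [Fintype Ω]

theorem hat_mul (h : MInv G N) : hat e ψ (M * N) = hat e ψ M * hat e ψ N := by
  ext ε δ
  simp only [hat_apply, mul_apply, ← Equiv.sum_comp e, Fintype.sum_prod_type, sum_mul, mul_sum]
  rw [sum_comm]
  refine sum_congr rfl fun γ _ => ?_
  rw [sum_comm, sum_comm (f := fun j i => _ * ψ i * (_ * ψ j))]
  refine sum_congr rfl fun i _ => ?_
  rw [← Equiv.sum_comp (Equiv.addLeft i)]
  refine sum_congr rfl fun j _ => ?_
  rw [Equiv.coe_addLeft, h.shift he, AddChar.map_add_eq_mul]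
  ring

theorem mtw_pow (h : MInv G M) (j : ZMod p) : mtw G M (x ^ j.val) =
    p * (M (e (true, 0)) (e (true, j)) + M (e (false, 0)) (e (false, j))) := by
  simp [mtw, ← Equiv.sum_comp e, Fintype.sum_prod_type, he, add_comm j, h.shift he, mul_add]

end Cfsg.Agent.Perm
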