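import Cfsg.Agent.Perm.TwoP
import Cfsg.Agent.S0719

/-! Wielandt's theorem on primitive groups of degree `2p` (`TP.main`). -/

set_option autoImplicit false

namespace Cfsg.Agent.Perm

open MulAction Char Matrix Finset

variable {G Ω : Type*} [Group G] [MulAction G Ω] {p : ℕ} [hp : Fact p.Prime] [Fintype Ω] [DecidableEq Ω]

/-- The projection `E` onto the constituent of degree `p`. -/
structure TP (x : G) (e : Bool × ZMod p ≃ Ω) (E : Matrix Ω Ω ℂ) : Prop where
  he : ∀ ε (i j : ZMod p), x ^ i.val • e (ε, j) = e (ε, i + j)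
  inv : MInv G E
  idem : E * E = E
  diag : ∀ y, E y y = 1 / 2
  tr : ∀ j ≠ 0, E (e (true, 0)) (e (true, j)) + E (e (false, 0)) (e (false, j)) = 0
  row : ∀ y, ∑ z, E y z = 0
  comm : ∀ M, MInv G M → ∃ c : ℂ, M * E = c • E ∧ E * M = c • E

theorem exists_TP [Fintype G] [FaithfulSMul G Ω] [IsPreprimitive G Ω] (hΩ : Fintype.card Ω = 2 * p)
    {x : G} (hx : orderOf x = p) (hf : ∀ y : Ω, x • y ≠ y) (h2 : ¬ IsMultiplyPretransitive G Ω 2) (a : Ω) :
    ∃ (e : Bool × ZMod p ≃ Ω) (E : Matrix Ω Ω ℂ), e (false, 0) = a ∧ TP x e E := by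
  obtain ⟨χ, h1, h3, h4, h5, h6⟩ := exists_char_two_p hp.out hΩ hx hf h2
  obtain ⟨e, h7, he⟩ := exists_coord_two hΩ hx hf a
  obtain ⟨E, h8, h9, rfl, h10⟩ := exists_mproj h1 h4
  have hp0 : (p : ℂ) ≠ 0 := Nat.cast_ne_zero.2 hp.out.ne_zero
  refine ⟨e, E, h7, he, h8, h9, fun y => ?_, fun j hj => ?_, fun y => ?_, h10⟩
  · have : ∀ z, E z z = E y y := fun z => by
      obtain ⟨g, rfl⟩ := exists_smul_eq G y z
      exact h8 g y y
    simp only [mtw, one_smul, this, sum_const, card_univ, hΩ, nsmul_eq_mul] at h5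
    push_cast at h5
    exact mul_left_cancel₀ hp0 (by linear_combination h5 / 2)
  · have := h6 _ (Subgroup.pow_mem _ (Subgroup.mem_zpowers x) j.val) fun e => hj (by
      rwa [← orderOf_dvd_iff_pow_eq_one, hx, ← ZMod.natCast_eq_zero_iff, ZMod.natCast_zmod_val] at e)
    rwa [mtw_pow he h8, mul_eq_zero_iff_left hp0] at this
  · obtain ⟨c, -, h⟩ := h10 (of fun _ _ => 1) fun _ _ _ => rfl
    have h11 : c • mtw G E = (∑ y, ∑ z, E y z) • fun _ => (1 : ℂ) := by
      funext g
      have := congrFun (congrArg (mtw G) h) g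
      simpa [mtw, mul_apply, mul_sum] using this.symm
    have h12 := congrArg (classInner · (mtw G E)) h11
    simp only [classInner_smul_left, h1.classInner_self,
      isIrrCharacter_one.classInner_eq_zero_of_ne h1 h3.symm, mul_one, mul_zero] at h12
    simpa [mul_apply, h12] using congrFun (congrFun h y) y

open Classical in
/-- The points of an orbit of `x` joined to its base point. -/
noncomputable def nb (G : Type*) [Group G] [MulAction G Ω] (e : Bool × ZMod p ≃ Ω) (b : Ω) (ε : Bool) :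
    Finset (ZMod p) := univ.filter fun j => (e (ε, 0), e (ε, j)) ∈ orbit G (e (false, 0), b)

omit [Fintype Ω] [DecidableEq Ω] in
theorem mem_nb {e : Bool × ZMod p ≃ Ω} {b : Ω} {ε : Bool} {j : ZMod p} :
    j ∈ nb G e b ε ↔ (e (ε, 0), e (ε, j)) ∈ orbit G (e (false, 0), b) := by
  classical
  exact mem_filter.trans (and_iff_right (mem_univ _))

namespace TP

variable {x : G} {e : Bool × ZMod p ≃ Ω} {E : Matrix Ω Ω ℂ} (h : TP x e E)
include h

theorem trace_hat (ψ : AddChar (ZMod p) ℂ) : (hat e ψ E).trace = 1 := by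
  rw [Perm.trace_hat, ← add_sum_erase _ _ (mem_univ 0), sum_eq_zero fun j hj => by
    rw [h.tr j (ne_of_mem_erase hj), zero_mul]]
  norm_num [h.diag]

theorem hat_eq {M : Matrix Ω Ω ℂ} (hM : MInv G M) {c : ℂ} (h1 : M * E = c • E) (h2 : E * M = c • E)
    (ψ : AddChar (ZMod p) ℂ) :
    hat e ψ (M - c • 1) = (hat e ψ (M - c • 1)).trace • (1 - hat e ψ E) := by
  have h0 : hat e ψ 0 = 0 := by simpa using hat_smul (e := e) (ψ := ψ) (M := 0) 0
  refine two_by_two (h.trace_hat ψ) ?_ ?_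
  · rw [← hat_mul h.he h.inv, sub_mul, h1]
    simp [h0]
  · rw [← hat_mul h.he (hM.sub (mInv_one.smul c)), mul_sub, h2]
    simp [h0]

theorem sum_eq {M : Matrix Ω Ω ℂ} (hM : MInv G M) {c k : ℂ} (h1 : M * E = c • E) (h2 : E * M = c • E)
    (hk : ∀ y, ∑ z, M y z = k) :
    ∑ j, (M (e (true, 0)) (e (true, j)) + M (e (false, 0)) (e (false, j))) = k + c := by
  have h3 : ∀ N : Matrix Ω Ω ℂ, ∑ δ, hat e 1 N false δ = ∑ z, N (e (false, 0)) z := fun N => by
    simp [hat_apply, ← Equiv.sum_comp e, Fintype.sum_prod_type]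
  have h4 := h3 (M - c • 1)
  rw [h.hat_eq hM h1 h2, ← hat_one (e := e) (ψ := 1), ← hat_sub, ← hat_smul, h3] at h4
  simp only [Matrix.smul_apply, Matrix.sub_apply, smul_eq_mul, ← mul_sum, sum_sub_distrib, h.row, hk,
    one_apply, sum_ite_eq, mem_univ, if_true, hat_sub, hat_smul, hat_one, trace_sub, trace_smul,
    trace_one, Perm.trace_hat, AddChar.one_apply, mul_one, Fintype.card_bool] at h4
  linear_combination h4

variable [IsPretransitive G Ω] {b : Ω}

theorem data (hb : b ≠ e (false, 0)) : ∃ l : ℤ,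
    E (e (false, 0)) b * Nat.card (orbit (stabilizer G (e (false, 0))) b) = l / 2 ∧
    E b (e (false, 0)) = E (e (false, 0)) b ∧
    (#(nb G e b true) + #(nb G e b false) : ℤ) = Nat.card (orbit (stabilizer G (e (false, 0))) b) + l ∧
    (Nat.card (orbit (stabilizer G (e (false, 0))) b) : ℤ) =
      2 * l ^ 2 + l + 2 * #(nb G e b true ∩ nb G e b false) ∧
    (l = 0 → ∀ ψ, hat e ψ (orb G (e (false, 0)) b) =
      (hat e ψ (orb G (e (false, 0)) b)).trace • (1 - hat e ψ E)) := by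
  set a := e (false, 0) with ha
  set k := Nat.card (orbit (stabilizer G a) b)
  set A := orb G a b with hA'
  have hA : MInv G A := mInv_orb a b
  have hk : (k : ℂ) ≠ 0 := Nat.cast_ne_zero.2 (Nat.card_ne_zero.2 ⟨⟨⟨b, mem_orbit_self b⟩⟩, inferInstance⟩)
  have h0 : ∀ ε j, A (e (ε, 0)) (e (ε, j)) = if j ∈ nb G e b ε then 1 else 0 := fun ε j => by
    classical
    exact if_congr mem_nb.symm rfl rfl
  have h1 : ∀ y, ∑ z, A y z = k := sum_orb a b
  have h2 : ∀ y, ∑ z, Aᵀ y z = k := by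
    have e1 : Aᵀ = orb G b a := Matrix.ext fun y z => by
      classical
      exact if_congr ⟨fun ⟨g, e⟩ => ⟨g, congrArg Prod.swap e⟩, fun ⟨g, e⟩ => ⟨g, congrArg Prod.swap e⟩⟩
        rfl rfl
    have e2 : ∑ y, ∑ z, Aᵀ y z = ∑ y, ∑ z, A y z := sum_comm
    have : Nonempty Ω := ⟨a⟩
    simp only [e1, sum_orb, h1, sum_const, nsmul_eq_mul, card_univ] at e2 ⊢
    exact fun _ => mul_left_cancel₀ (Nat.cast_ne_zero.2 Fintype.card_ne_zero) e2
  have h3 : ∀ ε j, Aᵀ (e (ε, 0)) (e (ε, -j)) = A (e (ε, 0)) (e (ε, j)) := fun ε j => by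
    rw [transpose_apply, ← hA.shift h.he ε ε (-j), neg_add_cancel]
  obtain ⟨c, c1, c2⟩ := h.comm A hA
  obtain ⟨c', c3, c4⟩ := h.comm _ hA.transpose
  have h4 := h.sum_eq hA c1 c2 h1
  obtain rfl : c = c' := by
    have := h.sum_eq hA.transpose c3 c4 h2
    rw [← Equiv.sum_comp (Equiv.neg (ZMod p))] at this
    simp only [Equiv.neg_apply, h3, h4] at this
    exact add_left_cancel this
  simp only [h0, sum_add_distrib, sum_boole, filter_mem_eq_inter, univ_inter] at h4
  have h5 : ∀ (M : Matrix Ω Ω ℂ) y, MInv G M → A a y * M a y = M a b * A a y := fun M y hM => by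
    rw [hA', orb_apply]
    split_ifs with e
    · rw [hM.eq_of_mem e, mul_comm]
    · simp
  have h6 : E a b * k = c / 2 := by
    have := congrFun (congrFun c4 a) a
    simp only [mul_apply, transpose_apply] at this
    rw [sum_congr rfl fun y _ => (mul_comm _ _).trans (h5 E y h.inv), ← mul_sum, h1,
      Matrix.smul_apply, h.diag] at this
    simpa [div_eq_mul_inv, mul_comm] using this
  have h7 : E b a * k = c / 2 := by
    have := congrFun (congrFun c1 a) a
    have h5' := fun y => h5 Eᵀ y h.inv.transpose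
    simp only [transpose_apply] at h5'
    simp only [mul_apply, h5', ← mul_sum, h1, Matrix.smul_apply, h.diag] at this
    simpa [div_eq_mul_inv, mul_comm] using this
  have h8 := sum_trace_hat (e := e) (M := (A - c • 1) * (Aᵀ - c • 1))
  have h9 : ∀ y, ((A - c • 1) * (Aᵀ - c • 1)) y y = k + c ^ 2 := fun y => by
    rw [mul_apply, ← h1 y, ← sum_ite_eq_of_mem univ y (fun _ => c ^ 2) (mem_univ _), ← sum_add_distrib]
    refine sum_congr rfl fun z _ => ?_
    by_cases e : y = z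
    · simp [e, hA', orb_diag hb, sq]
    · simp only [Matrix.sub_apply, transpose_apply, Matrix.smul_apply, one_apply, e, Ne.symm e, hA',
        orb_apply, if_false]
      split_ifs <;> simp
  have h10 : ∀ ψ, (hat e ψ ((A - c • 1) * (Aᵀ - c • 1))).trace =
      (hat e ψ (A - c • 1)).trace * (hat e ψ (Aᵀ - c • 1)).trace := fun ψ => by
    conv_lhs => rw [hat_mul h.he (hA.transpose.sub (mInv_one.smul c)), h.hat_eq hA c1 c2,
      h.hat_eq hA.transpose c3 c4]
    simp only [smul_mul_smul_comm, mul_sub, sub_mul, one_mul, mul_one, ← hat_mul h.he h.inv, h.idem,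
      sub_self, sub_zero, trace_smul, trace_sub, h.trace_hat, trace_one, Fintype.card_bool]
    norm_num
  simp only [h10, h9, Perm.trace_hat (M := _ - _), sum_hat_mul,
    mul_right_inj' (Nat.cast_ne_zero.2 hp.out.ne_zero : (p : ℂ) ≠ 0)] at h8
  have h11 : ∀ ε, 0 ∉ nb G e b ε := fun ε e' => by simpa [e', hA', orb_diag hb] using h0 ε 0
  rw [sum_congr rfl (g := fun j => (if j = 0 then 4 * c ^ 2 else 0) + ((if j ∈ nb G e b true then 1 else 0) +
    (if j ∈ nb G e b false then 1 else 0)) + 2 * if j ∈ nb G e b true ∩ nb G e b false then 1 else 0)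
    fun j _ => by
      simp only [Matrix.sub_apply, h3, h0, Matrix.smul_apply, one_apply, mem_inter]
      by_cases hj : j = 0
      · simp [hj, h11]; ring
      · by_cases e1 : j ∈ nb G e b true <;> by_cases e2 : j ∈ nb G e b false <;>
          simp [hj, e1, e2, Ne.symm hj] <;> norm_num] at h8
  simp only [sum_add_distrib, sum_boole, filter_mem_eq_inter, univ_inter, ← mul_sum, sum_ite_eq',
    mem_univ, if_true] at h8
  obtain ⟨l, rfl⟩ : ∃ l : ℤ, c = l := ⟨#(nb G e b true) + #(nb G e b false) - k, by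
    push_cast; linear_combination -h4⟩
  refine ⟨l, h6, mul_right_cancel₀ hk (h7.trans h6.symm), by exact_mod_cast h4,
    Int.cast_injective (α := ℂ) (by push_cast; linear_combination h4 - h8), ?_⟩
  rintro rfl ψ
  simpa using h.hat_eq hA c1 c2 ψ

omit [IsPretransitive G Ω] in
theorem card_ne_one [FaithfulSMul G Ω] [IsPreprimitive G Ω] (hx : orderOf x = p) (hb : b ≠ e (false, 0)) :
    Nat.card (orbit (stabilizer G (e (false, 0))) b) ≠ 1 := fun h1 => by
  have : Nontrivial Ω := ⟨_, _, hb⟩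
  have h2 : stabilizer G (e (false, 0)) = ⊥ := eq_bot_iff.2 fun g hg => eq_of_smul_eq_smul (α := Ω)
    fun c => (congrArg Subtype.val ((Nat.card_eq_one_iff_unique.1 (S0719.card_orbit_eq_one hb h1 c)).1.elim
      (⟨_, mem_orbit c (⟨g, hg⟩ : stabilizer G _)⟩ : orbit (stabilizer G _) c)
        ⟨c, mem_orbit_self c⟩)).trans (one_smul G c).symm
  have h3 := (h2 ▸ IsPreprimitive.isCoatom_stabilizer_of_isPreprimitive G (e (false, 0))).2
    (Subgroup.zpowers x) (bot_lt_iff_ne_bot.2 fun e => hp.out.ne_one (by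
      rwa [Subgroup.zpowers_eq_bot, ← orderOf_eq_one_iff, hx] at e))
  obtain ⟨g, hg⟩ := exists_smul_eq G (e (false, 0)) (e (true, 0))
  obtain ⟨n, rfl⟩ := (isOfFinOrder_iff_pow_eq_one.2 ⟨p, hp.out.pos, hx ▸ pow_orderOf_eq_one x⟩).mem_powers_iff_mem_zpowers.2
    (h3.ge (Subgroup.mem_top g))
  simp [pow_eq_pow_mod n (hx ▸ pow_orderOf_eq_one x), ← ZMod.val_natCast, h.he] at hg

theorem data' (hk : ∀ b ≠ e (false, 0), Nat.card (orbit (stabilizer G (e (false, 0))) b) ≠ 1)
    (hb : b ≠ e (false, 0)) : ∃ l : ℤ, l ≠ 0 ∧ l ≠ -1 ∧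
    (Nat.card (orbit (stabilizer G (e (false, 0))) b) : ℤ) = l * (2 * l + 1) ∧
    E (e (false, 0)) b * (2 * l + 1) = 1 / 2 ∧ E b (e (false, 0)) = E (e (false, 0)) b := by
  have h0 : ∀ b ε j, j ∈ nb G e b ε → E (e (ε, 0)) (e (ε, j)) = E (e (false, 0)) b :=
    fun b ε j hj => h.inv.eq_of_mem (mem_nb.1 hj)
  have h1 : ∀ b ≠ e (false, 0), ∀ ε j, j ∈ nb G e b ε → j ≠ 0 := by
    rintro b hb ε _ hj rfl
    simpa [orb_apply, mem_nb.1 hj] using orb_diag (G := G) hb (e (ε, 0))
  have h2 : ∀ b : Ω, (Nat.card (orbit (stabilizer G (e (false, 0))) b) : ℂ) ≠ 0 := fun b =>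
    Nat.cast_ne_zero.2 (Nat.card_ne_zero.2 ⟨⟨⟨b, mem_orbit_self b⟩⟩, inferInstance⟩)
  have h3 : ∀ b ≠ e (false, 0), E (e (false, 0)) b ≠ 0 → nb G e b true ∩ nb G e b false = ∅ :=
    fun b hb h3 => eq_empty_of_forall_notMem fun j hj => h3 (by
      have := h.tr j (h1 b hb _ j (mem_inter.1 hj).1)
      rwa [h0 b _ j (mem_inter.1 hj).1, h0 b _ j (mem_inter.1 hj).2, add_self_eq_zero] at this)
  have h4 : ∀ b ≠ e (false, 0), E (e (false, 0)) b ≠ 0 → ∃ l : ℤ, l ≠ 0 ∧ l ≠ -1 ∧
      (Nat.card (orbit (stabilizer G (e (false, 0))) b) : ℤ) = l * (2 * l + 1) ∧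
      E (e (false, 0)) b * (2 * l + 1) = 1 / 2 ∧ E b (e (false, 0)) = E (e (false, 0)) b ∧
      (#(nb G e b true) + #(nb G e b false) : ℤ) = 2 * l * (l + 1) := fun b hb hE => by
    obtain ⟨l, l1, l2, l3, l4, -⟩ := h.data hb
    rw [h3 b hb hE, card_empty] at l4
    have l5 : l ≠ 0 := by rintro rfl; exact mul_ne_zero hE (h2 b) (by simpa using l1)
    refine ⟨l, l5, fun e => hk b hb (by subst e; omega), by linear_combination l4, ?_, l2,
      by linear_combination l3 + l4⟩
    have := congrArg (Int.cast (R := ℂ)) l4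
    push_cast at this
    exact mul_left_cancel₀ (Int.cast_ne_zero.2 l5) (by linear_combination l1 - E _ b * this)
  suffices hE : E (e (false, 0)) b ≠ 0 by
    obtain ⟨l, l1, l2, l3, l4, l5, -⟩ := h4 b hb hE
    exact ⟨l, l1, l2, l3, l4, l5⟩
  intro hE
  obtain ⟨j, hj, hj'⟩ : ∃ j ≠ 0, E (e (false, 0)) (e (false, j)) ≠ 0 := by
    obtain ⟨c, c1, c2⟩ : ∃ c ≠ e (false, 0), E (e (false, 0)) c ≠ 0 := by
      by_contra! hc
      have := h.row (e (false, 0))
      rw [sum_eq_single_of_mem _ (mem_univ _) fun c _ => hc c, h.diag] at this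
      norm_num at this
    obtain ⟨l, l1, l2, -, -, -, l3⟩ := h4 c c1 c2
    by_cases h5 : nb G e c false = ∅
    · obtain ⟨j, hj⟩ : (nb G e c true).Nonempty := nonempty_iff_ne_empty.2 fun e => by
        simp [h5, e, l1, add_eq_zero_iff_eq_neg, l2] at l3
      refine ⟨j, h1 c c1 _ j hj, fun e => c2 ?_⟩
      simpa [e, h0 c _ j hj] using h.tr j (h1 c c1 _ j hj)
    · obtain ⟨j, hj⟩ := nonempty_iff_ne_empty.2 h5
      exact ⟨j, h1 c c1 _ j hj, by rwa [h0 c _ j hj]⟩
  obtain ⟨l, l1, -, l3, l4, l5⟩ := h.data hb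
  obtain rfl : l = 0 := by simpa [hE] using l1.symm
  have h5 := card_le_card (inter_subset_left (s₁ := nb G e b true) (s₂ := nb G e b false))
  have h6 := card_le_card (inter_subset_right (s₁ := nb G e b true) (s₂ := nb G e b false))
  have h7 : nb G e b true = nb G e b false :=
    (eq_of_subset_of_card_le inter_subset_left (by omega)).symm.trans
      (eq_of_subset_of_card_le inter_subset_right (by omega))
  obtain ⟨ψ, hψ⟩ := eq_of_sum_eq_zero (p := p)
  have h8 : ∀ ε, hat e ψ (orb G (e (false, 0)) b) ε ε =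
      ∑ j, (if j ∈ nb G e b false then 1 else 0) * ψ j := fun ε => by
    classical
    refine sum_congr rfl fun j _ => congrArg (· * ψ j) (if_congr (mem_nb.symm.trans ?_) rfl rfl)
    cases ε <;> simp [h7]
  have h9 := fun ε => congrFun (congrFun (l5 rfl ψ) ε) ε
  have h10 := h.trace_hat ψ
  simp only [Matrix.smul_apply, Matrix.sub_apply, one_apply_eq, Matrix.trace, diag_apply,
    Fintype.sum_bool, h8, smul_eq_mul] at h9 h10
  by_cases h11 : ∑ j, (if j ∈ nb G e b false then 1 else 0) * ψ j = 0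
  · have h12 : nb G e b false = ∅ := eq_empty_of_forall_notMem fun j hj => by
      simpa [hj, mt (h1 b hb false 0) (by simp)] using hψ _ (fun j => by
        split_ifs; exacts [⟨1, by simp⟩, ⟨0, by simp⟩]) h11 j
    rw [h7, h12] at l3
    exact h2 b (by exact_mod_cast (by simpa using l3.symm))
  · have h12 : ∑ j, (if j = 0 then 0 else E (e (false, 0)) (e (false, j))) * ψ j = 0 := by
      have := mul_left_cancel₀ h11 (show _ * hat e ψ E false false = _ * (1 / 2) by
        linear_combination (h9 false) / 2)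
      rw [hat_apply, ← add_sum_erase _ _ (mem_univ 0), h.diag] at this
      rw [← add_sum_erase _ _ (mem_univ 0), sum_congr rfl fun j hj => by rw [if_neg (ne_of_mem_erase hj)]]
      simpa using this
    refine hj' ((if_neg hj).symm.trans ((hψ _ (fun j => ?_) h12 j).trans (if_pos rfl)))
    split_ifs with e'
    · exact ⟨0, by simp⟩
    obtain ⟨l, l1, -⟩ := h.data (b := e (false, j)) (by simpa)
    exact ⟨l / 2 / Nat.card (orbit (stabilizer G (e (false, 0))) (e (false, j))), by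
      push_cast; rw [← l1, mul_div_cancel_right₀ _ (h2 _)]⟩

end TP

omit hp [DecidableEq Ω] in
theorem sum_orbits {H : Type*} [Group H] [MulAction H Ω] [Fintype (orbitRel.Quotient H Ω)] (f : Ω → ℂ)
    (hf : ∀ (g : H) y, f (g • y) = f y) :
    ∑ y, f y = ∑ q : orbitRel.Quotient H Ω, Nat.card (orbit H q.out) * f q.out := by
  classical
  rw [← Equiv.sum_comp (selfEquivSigmaOrbits H Ω).symm, Fintype.sum_sigma]
  refine sum_congr rfl fun q _ => ?_
  rw [sum_congr rfl (g := fun _ => f q.out) fun ⟨_, g, hg⟩ _ => (congrArg f hg.symm).trans (hf g _)]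
  simp

theorem arith_two_p {ι : Type*} {s : Finset ι} {l : ι → ℤ} (h0 : ∀ i ∈ s, l i ≠ 0 ∧ l i ≠ -1)
    (h1 : ∑ i ∈ s, l i = -1) (h2 : ∑ i ∈ s, (l i / (2 * l i + 1) : ℚ) = 1) :
    s.card = 2 ∧ ∃ u : ℕ, 0 < u ∧ (∀ i ∈ s, l i = u ∨ l i = -1 - u) ∧
      ∑ i ∈ s, l i * (2 * l i + 1) = (2 * u + 1) ^ 2 := by
  classical
  have h3 : ∀ i ∈ s, (1 / 3 : ℚ) ≤ l i / (2 * l i + 1) := fun i hi => by
    obtain h | h : 1 ≤ l i ∨ l i ≤ -2 := by have := h0 i hi; omega
    · have : (1 : ℚ) ≤ l i := by exact_mod_cast h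
      rw [le_div_iff₀ (by linarith)]; linarith
    · have : (l i : ℚ) ≤ -2 := by exact_mod_cast h
      rw [le_div_iff_of_neg (by linarith)]; linarith
  have h4 := sum_le_sum h3
  rw [h2, sum_const, nsmul_eq_mul] at h4
  have h5 : s.card ≤ 3 := by exact_mod_cast (by linarith : (s.card : ℚ) ≤ 3)
  have h6 : s.card ≠ 3 := fun e => by
    have := (sum_eq_sum_iff_of_le h3).1 (by rw [h2, sum_const, e]; norm_num)
    rw [sum_congr rfl (g := fun _ => 1) fun i hi => by
      have h := this i hi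
      rw [eq_div_iff (by exact_mod_cast (by omega : 2 * l i + 1 ≠ 0))] at h
      exact_mod_cast (by linarith : (l i : ℚ) = 1)] at h1
    simp [e] at h1
  have h7 : s.card ≠ 0 := fun e => by simp [card_eq_zero.1 e] at h1
  have h8 : s.card ≠ 1 := fun e => by
    obtain ⟨i, rfl⟩ := card_eq_one.1 e
    exact (h0 i (mem_singleton_self i)).2 (by simpa using h1)
  refine ⟨by omega, ?_⟩
  obtain ⟨i, j, hij, rfl⟩ := card_eq_two.1 (by omega : s.card = 2)
  simp only [sum_pair hij, mem_insert, mem_singleton, forall_eq_or_imp, forall_eq] at h0 h1 ⊢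
  obtain h | h : 0 < l i ∨ 0 < l j := by omega
  · lift l i to ℕ using h.le with u
    exact ⟨u, by omega, ⟨.inl rfl, .inr (by omega)⟩, by rw [show l j = -1 - u by omega]; ring⟩
  · lift l j to ℕ using h.le with u
    exact ⟨u, by omega, ⟨.inr (by omega), .inl rfl⟩, by rw [show l i = -1 - u by omega]; ring⟩

theorem wielandt_two_p [Finite G] [FaithfulSMul G Ω] [IsPreprimitive G Ω] (hΩ : Fintype.card Ω = 2 * p)
    {x : G} (hx : orderOf x = p) (hf : ∀ y : Ω, x • y ≠ y) (h2 : ¬ IsMultiplyPretransitive G Ω 2) (a : Ω) :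
    Nat.card (orbitRel.Quotient (stabilizer G a) Ω) = 3 ∧ ∃ u : ℕ, 0 < u ∧ p = 2 * u ^ 2 + 2 * u + 1 ∧
      ∀ b ≠ a, Nat.card (orbit (stabilizer G a) b) = u * (2 * u + 1) ∨
        Nat.card (orbit (stabilizer G a) b) = (u + 1) * (2 * u + 1) := by
  classical
  have := Fintype.ofFinite G
  obtain ⟨e, E, rfl, h⟩ := exists_TP hΩ hx hf h2 a
  choose! l l1 l2 l3 l4 l5 using fun b hb => h.data' (fun b => h.card_ne_one hx) (b := b) hb
  set a := e (false, 0)
  have := Fintype.ofFinite (orbitRel.Quotient (stabilizer G a) Ω)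
  let q₀ : orbitRel.Quotient (stabilizer G a) Ω := Quotient.mk'' a
  have h3 : ∀ b, Quotient.mk'' b = q₀ ↔ b = a := fun b =>
    ⟨fun e => by obtain ⟨g, e⟩ := Quotient.exact' e; exact e.symm.trans g.2, congrArg _⟩
  have h4 : ∀ q ∈ univ.erase q₀, q.out ≠ a := fun q hq e =>
    ne_of_mem_erase hq (q.out_eq'.symm.trans ((h3 _).2 e))
  have h5 : ∀ f : Ω → ℂ, (∀ (g : stabilizer G a) y, f (g • y) = f y) → ∑ y, f y =
      f a + ∑ q ∈ univ.erase q₀, l q.out * (2 * l q.out + 1) * f q.out := fun f hf => by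
    rw [sum_orbits f hf, ← add_sum_erase _ _ (mem_univ q₀), (h3 _).1 q₀.out_eq',
      show Nat.card (orbit (stabilizer G a) a) = 1 from Nat.card_eq_one_iff_unique.2
        ⟨⟨fun ⟨_, g, e⟩ ⟨_, g', e'⟩ => Subtype.ext ((e.symm.trans g.2).trans (e'.symm.trans g'.2).symm)⟩,
          ⟨⟨a, mem_orbit_self a⟩⟩⟩, Nat.cast_one, one_mul]
    congr 1
    exact sum_congr rfl fun q hq => congrArg (· * f q.out) (by exact_mod_cast l3 _ (h4 q hq))
  have h6 : ∀ (g : stabilizer G a) y, E a (g • y) = E a y := fun g y => by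
    rw [← h.inv g a y, show (g : G) • a = a from g.2]; rfl
  have h7 : ∀ (g : stabilizer G a) y, E (g • y) a = E y a := fun g y => by
    rw [← h.inv g y a, show (g : G) • a = a from g.2]; rfl
  have h8 := h5 _ h6
  have h9 := h5 (fun y => E a y * E y a) fun g y => by rw [h6, h7]
  have h10 := h5 (fun _ => 1) fun _ _ => rfl
  rw [h.row, h.diag, sum_congr rfl (g := fun q => (l q.out : ℂ) / 2) fun q hq => by
    linear_combination l q.out * l4 _ (h4 q hq), ← sum_div] at h8
  rw [← mul_apply, h.idem, h.diag, sum_congr rfl (g := fun q => (l q.out / (2 * l q.out + 1) : ℂ) / 4)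
    fun q hq => by
      have h : (2 * l q.out + 1 : ℂ) ≠ 0 := by exact_mod_cast (by omega : 2 * l q.out + 1 ≠ 0)
      rw [l5 _ (h4 q hq), eq_div_of_mul_eq h (l4 _ (h4 q hq))]
      field_simp
      norm_num, ← sum_div] at h9
  obtain ⟨h11, u, h12, h13, h14⟩ := arith_two_p (s := univ.erase q₀) (l := fun q => l q.out)
    (fun q hq => ⟨l1 _ (h4 q hq), l2 _ (h4 q hq)⟩)
    (Int.cast_injective (α := ℂ) (by push_cast; linear_combination -2 * h8))
    (Rat.cast_injective (α := ℂ) (by push_cast; linear_combination -4 * h9))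
  rw [card_erase_of_mem (mem_univ _), card_univ, ← Nat.card_eq_fintype_card] at h11
  simp only [sum_const, card_univ, hΩ, mul_one, nsmul_eq_mul] at h10
  replace h10 : (2 * p : ℤ) = 1 + ∑ q ∈ univ.erase q₀, l q.out * (2 * l q.out + 1) := by
    exact_mod_cast h10
  refine ⟨by omega, u, h12, by nlinarith, fun b hb => ?_⟩
  have h15 := mem_erase.2 ⟨mt (h3 b).1 hb, mem_univ _⟩
  rw [← orbit_eq_iff.2 (Quotient.exact' (Quotient.out_eq' (Quotient.mk'' b :
    orbitRel.Quotient (stabilizer G a) Ω)))]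
  have h16 := l3 _ (h4 _ h15)
  refine (h13 _ h15).imp (fun e => ?_) fun e => ?_ <;> zify <;> rw [h16, e]
  ring

end Cfsg.Agent.Perm
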